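import Mathlib
import Cfsg.Agent.Helper90.HTDefs

set_option autoImplicit false

namespace Cfsg.Agent.Helper22.HT5953

open Module Polynomial Cfsg.Agent.Helper90.HT

theorem ht_cw_nsmul {A B : Type*} [AddCommGroup A] [AddCommGroup B] (φ : A → B)
    (hφ : ∀ u u', φ (u + u') = φ u + φ u') (k : ℕ) (z : A) : φ (k • z) = k • φ z :=
  map_nsmul (AddMonoidHom.mk' φ hφ) k z

theorem ht_cw_sum {A B : Type*} [AddCommGroup A] [AddCommGroup B] (φ : A → B)
    (hφ : ∀ u u', φ (u + u') = φ u + φ u') {κ : Type*} (s : Finset κ) (f : κ → A) :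
    φ (∑ i ∈ s, f i) = ∑ i ∈ s, φ (f i) :=
  map_sum (AddMonoidHom.mk' φ hφ) f s

theorem ht_cw_zsmul {F V : Type*} [Field F] [AddCommGroup V] [Module F V] (p : ℕ) [NeZero p]
    [Algebra (ZMod p) F] (φ : V → F) (hφ : ∀ u u', φ (u + u') = φ u + φ u') (x : ZMod p)
    (y : F) (u : V) : φ ((x • y) • u) = x • φ (y • u) := by
  obtain ⟨k, rfl⟩ : ∃ k : ℕ, x = (k : ZMod p) := ⟨x.val, (ZMod.natCast_zmod_val x).symm⟩
  rw [Nat.cast_smul_eq_nsmul, Nat.cast_smul_eq_nsmul, smul_assoc]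
  exact ht_cw_nsmul φ hφ k (y • u)

theorem ht_cw_expand {F V : Type*} [Field F] [AddCommGroup V] [Module F V] (p : ℕ) [NeZero p]
    [Algebra (ZMod p) F] (φ : V → V → F)
    (h1 : ∀ u u' v, φ (u + u') v = φ u v + φ u' v) (h2 : ∀ u v v', φ u (v + v') = φ u v + φ u v')
    {κ : Type*} [Fintype κ] (x : κ → ZMod p) (e : κ → F) (w : κ → V) :
    φ (∑ s, (x s • e s) • w s) (∑ t, (x t • e t) • w t) =
      ∑ s, ∑ t, (x s * x t) • φ (e s • w s) (e t • w t) := by
  have e1 : φ (∑ s, (x s • e s) • w s) (∑ t, (x t • e t) • w t) =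
      ∑ s, φ ((x s • e s) • w s) (∑ t, (x t • e t) • w t) :=
    ht_cw_sum (fun u => φ u (∑ t, (x t • e t) • w t)) (fun u u' => h1 u u' _) Finset.univ
      (fun s => (x s • e s) • w s)
  rw [e1]
  refine Finset.sum_congr rfl (fun s _ => ?_)
  have e2 : φ ((x s • e s) • w s) (∑ t, (x t • e t) • w t) =
      ∑ t, φ ((x s • e s) • w s) ((x t • e t) • w t) :=
    ht_cw_sum (fun v => φ ((x s • e s) • w s) v) (fun v v' => h2 _ v v') Finset.univ
      (fun t => (x t • e t) • w t)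
  rw [e2]
  refine Finset.sum_congr rfl (fun t _ => ?_)
  have e3 : φ ((x s • e s) • w s) ((x t • e t) • w t) =
      x s • φ (e s • w s) ((x t • e t) • w t) :=
    ht_cw_zsmul p (fun u => φ u ((x t • e t) • w t)) (fun u u' => h1 u u' _) (x s) (e s) (w s)
  have e4 : φ (e s • w s) ((x t • e t) • w t) = x t • φ (e s • w s) (e t • w t) :=
    ht_cw_zsmul p (fun v => φ (e s • w s) v) (fun v v' => h2 _ v v') (x t) (e t) (w t)
  rw [e3, e4, smul_smul]

section geom

variable {F : Type*} [Field F] {V : Type*} [AddCommGroup V] [Module F V] [FiniteDimensional F V]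
  (σ : F →+* F) (h : V → V → F)

/-- CWH: Chevalley–Warning for biadditive maps over a finite field (reduce to the prime field). -/
theorem ht_cw [Fintype F] {ι : Type} [Fintype ι] (g : ι → V → V → F)
    (hadd1 : ∀ j u u' v, g j (u + u') v = g j u v + g j u' v)
    (hadd2 : ∀ j u v v', g j u (v + v') = g j u v + g j u v')
    (U : Submodule F V) (hdim : 2 * Fintype.card ι < finrank F U) :
    ∃ v ∈ U, v ≠ 0 ∧ ∀ j, g j v v = 0 := by
  classical
  obtain ⟨p, hpF⟩ := CharP.exists F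
  have hp : p.Prime := CharP.char_is_prime F p
  have hpf : Fact p.Prime := ⟨hp⟩
  let _ : Algebra (ZMod p) F := ZMod.algebra F p
  obtain ⟨n, hn⟩ : ∃ n, n = finrank F U := ⟨_, rfl⟩
  rw [← hn] at hdim
  obtain ⟨f, hf⟩ : ∃ f, f = finrank (ZMod p) F := ⟨_, rfl⟩
  have hf0 : 0 < f := by
    rw [hf]
    exact Module.finrank_pos
  obtain ⟨b⟩ : Nonempty (Basis (Fin n) F U) := by
    rw [hn]
    exact ⟨Module.finBasis F U⟩
  obtain ⟨c⟩ : Nonempty (Basis (Fin f) (ZMod p) F) := by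
    rw [hf]
    exact ⟨Module.finBasis (ZMod p) F⟩
  obtain ⟨P, hP⟩ : ∃ P : ι × Fin f → MvPolynomial (Fin n × Fin f) (ZMod p), ∀ jl, P jl =
      ∑ s : Fin n × Fin f, ∑ t : Fin n × Fin f,
        MvPolynomial.C (c.repr (g jl.1 (c s.2 • (b s.1 : V)) (c t.2 • (b t.1 : V))) jl.2) *
          MvPolynomial.X s * MvPolynomial.X t := ⟨_, fun _ => rfl⟩
  have hdeg : ∀ jl, (P jl).totalDegree ≤ 2 := by
    intro jl
    rw [hP]
    apply MvPolynomial.totalDegree_finsetSum_le
    intro s _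
    apply MvPolynomial.totalDegree_finsetSum_le
    intro t _
    refine le_trans (MvPolynomial.totalDegree_mul _ _) ?_
    have h1 := MvPolynomial.totalDegree_mul
      (MvPolynomial.C (c.repr (g jl.1 (c s.2 • (b s.1 : V)) (c t.2 • (b t.1 : V))) jl.2) :
        MvPolynomial (Fin n × Fin f) (ZMod p))
      (MvPolynomial.X s)
    rw [MvPolynomial.totalDegree_C, MvPolynomial.totalDegree_X] at h1
    rw [MvPolynomial.totalDegree_X]
    omega
  have hsum : ∑ jl, (P jl).totalDegree < Fintype.card (Fin n × Fin f) := by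
    calc ∑ jl, (P jl).totalDegree ≤ ∑ jl : ι × Fin f, 2 :=
          Finset.sum_le_sum (fun jl _ => hdeg jl)
      _ = 2 * (Fintype.card ι * f) := by simp [mul_comm]
      _ < n * f := by nlinarith
      _ = Fintype.card (Fin n × Fin f) := by simp
  have hdvd := char_dvd_card_solutions_of_fintype_sum_lt p hsum
  have h0 : ∀ jl, MvPolynomial.eval (0 : Fin n × Fin f → ZMod p) (P jl) = 0 := by
    intro jl
    rw [hP]
    simp
  have hcard : 1 < Fintype.card
      {x : Fin n × Fin f → ZMod p // ∀ i, MvPolynomial.eval x (P i) = 0} := by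
    have hpos : 0 < Fintype.card
        {x : Fin n × Fin f → ZMod p // ∀ i, MvPolynomial.eval x (P i) = 0} :=
      Fintype.card_pos_iff.mpr ⟨⟨0, h0⟩⟩
    exact lt_of_lt_of_le hp.one_lt (Nat.le_of_dvd hpos hdvd)
  obtain ⟨⟨x, hx⟩, hne⟩ := Fintype.exists_ne_of_one_lt_card hcard ⟨0, h0⟩
  have hx0 : x ≠ 0 := fun h => hne (Subtype.ext h)
  obtain ⟨y, hy⟩ : ∃ y : Fin n → F, y = fun a => ∑ l, x (a, l) • c l := ⟨_, rfl⟩
  obtain ⟨u, hu⟩ : ∃ u : U, u = ∑ a, y a • b a := ⟨_, rfl⟩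
  have huV : (u : V) = ∑ s : Fin n × Fin f, (x s • c s.2) • (b s.1 : V) := by
    rw [hu, Fintype.sum_prod_type]
    simp only [Submodule.coe_sum, Submodule.coe_smul]
    refine Finset.sum_congr rfl (fun a _ => ?_)
    rw [hy, Finset.sum_smul]
  refine ⟨(u : V), u.2, ?_, ?_⟩
  · intro hu0
    apply hx0
    have h1 : u = 0 := Subtype.ext hu0
    rw [hu] at h1
    have hy0 : ∀ a, y a = 0 := Fintype.linearIndependent_iff.1 b.linearIndependent y h1
    funext s
    obtain ⟨a, l⟩ := s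
    have h2 := hy0 a
    rw [hy] at h2
    exact Fintype.linearIndependent_iff.1 c.linearIndependent (fun l => x (a, l)) h2 l
  · intro j
    apply c.ext_elem
    intro l
    have hxl := hx (j, l)
    rw [hP] at hxl
    simp only [map_sum, map_mul, MvPolynomial.eval_C, MvPolynomial.eval_X] at hxl
    have hexp : g j (∑ s : Fin n × Fin f, (x s • c s.2) • (b s.1 : V))
        (∑ t : Fin n × Fin f, (x t • c t.2) • (b t.1 : V)) =
        ∑ s : Fin n × Fin f, ∑ t : Fin n × Fin f,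
          (x s * x t) • g j (c s.2 • (b s.1 : V)) (c t.2 • (b t.1 : V)) :=
      ht_cw_expand p (g j) (hadd1 j) (hadd2 j) x (fun s => c s.2) (fun s => (b s.1 : V))
    rw [huV, hexp, map_zero, Finsupp.zero_apply, ← hxl]
    simp only [map_sum, map_smul, Finsupp.finsetSum_apply, Finsupp.smul_apply, smul_eq_mul]
    refine Finset.sum_congr rfl (fun s _ => ?_)
    refine Finset.sum_congr rfl (fun t _ => ?_)
    ring

end geom

end Cfsg.Agent.Helper22.HT5953
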