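/-
helper22: S1351 part (A) (B&G 13.10, helper25's Theorem (i)): the configuration to be refuted.
-/
import Cfsg.Prelude.Def_OddOrderLocal

set_option autoImplicit false

namespace Cfsg.Agent.Helper22

open Cfsg Subgroup

universe u

variable {G : Type u} [Group G]

/-- The configuration refuted in part (A) of S1351: `P ≤ E` of order `p ∈ τ₃(M)`, `H` a maximal
subgroup over `N_G(P)` not conjugate to `M`, `R ≤ E` of order `r ∈ τ₁(M) ∩ τ₁(H)` acting
fixed-point-freely on `P`, `p ∈ σ(H)`, and `R` does not centralize `C_{M_σ}(P)`. -/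
structure BG13iCfg (M H E P R : Subgroup G) (p r : ℕ) : Prop where
  hM : IsCoatom M
  hH : IsCoatom H
  hnc : ∀ g : G, H ≠ M.map (MulAut.conj g).toMonoidHom
  hE : IsComplIn E (sigmaCore M) M
  hp : p ∈ tau3 M
  hPE : P ≤ E
  hPc : Nat.card P = p
  hNH : normalizer (P : Set G) ≤ H
  hr : r ∈ tau1 M
  hRE : R ≤ E
  hRc : Nat.card R = r
  hrH : r ∈ tau1 H
  hpH : p ∈ sigma H
  hfix : P ⊓ centralizer (R : Set G) = ⊥
  hK : ¬ sigmaCore M ⊓ centralizer (P : Set G) ≤ centralizer (R : Set G)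

end Cfsg.Agent.Helper22
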