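/-
CALL S1538 (helper22), piece NF: a maximal subgroup with `κ(M) ≠ ∅` and `M_F = M_σ` is not of
Frobenius type.
-/
import Mathlib
import Cfsg.Prelude.Def_OddOrderLocal
import Cfsg.Prelude.Def_OddOrder
import Cfsg.Agent.Helper23.Trans
import Cfsg.Agent.Helper23.FittingHall

set_option autoImplicit false
set_option linter.unusedVariables false

namespace Cfsg.Agent.Helper22

open Cfsg Subgroup

universe u

variable {G : Type u} [Group G] [Finite G]

/-- NF. A maximal subgroup with `κ(M) ≠ ∅` and `M_F = M_σ` is not of Frobenius type. -/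
theorem bg38_not_typeF (hG : IsMinSimpleOddOrder G) {M : Subgroup G} (hM : IsCoatom M) {r : ℕ}
    (hr : r ∈ kappa M) (hF : fittingHallOf M = sigmaCore M)
    (hexp : ∀ {A B : Subgroup ↥M}, Monoid.exponent ↥A = Monoid.exponent ↥B → ∀ {r : ℕ}, r.Prime →
      r ∣ Nat.card B → ∃ u ∈ A, orderOf u = r)
    (hcyc : ∀ {r : ℕ}, r.Prime → ∀ {P : Subgroup ↥M}, IsPGroup r P → IsCyclic ↥P →
      ∀ {u x : ↥M}, u ∈ P → orderOf u = r → x ∈ P → x ≠ 1 → u ∈ zpowers x) :
    ¬ IsOfTypeF ↥M := by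
  rintro ⟨-, -, -, -, Uc, -, hcompl, -, U₀, hU₀, hexpU, hfpf⟩
  obtain ⟨hrp, hrM, hrσ, hrS⟩ := hr
  have := Fact.mk hrp
  have h1 : ¬ r ∣ Nat.card (fittingHall ↥M) := by
    intro h
    rw [← Cfsg.Agent.Helper23.card_fittingHallOf, hF] at h
    exact hrσ (Cfsg.Agent.Helper23.mem_of_dvd_card_piCoreOf (sigma M) M hrp h)
  have h2 : r ∣ Nat.card Uc := by
    have h3 := hcompl.card_mul_card
    rw [← h3] at hrM
    exact (hrp.dvd_mul.mp hrM).resolve_left h1
  obtain ⟨u, huU₀, huo⟩ := hexp hexpU hrp h2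
  have hu1 : u ≠ 1 := by
    intro h
    rw [h, orderOf_one] at huo
    exact hrp.one_lt.ne huo
  have hPg : IsPGroup r ↥(zpowers u) := by
    apply IsPGroup.of_card (n := 1)
    rw [Nat.card_zpowers, huo, pow_one]
  obtain ⟨P, hP⟩ := hPg.exists_le_sylow
  obtain ⟨hPc, x, hxP, hx1, y, hy, hy1, hxy⟩ := hrS P
  have hux : u ∈ zpowers x :=
    hcyc hrp P.isPGroup' hPc (hP (mem_zpowers u)) huo hxP hx1
  obtain ⟨j, rfl⟩ := Subgroup.mem_zpowers_iff.mp hux
  have hyF : y ∈ fittingHallOf M := by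
    rw [hF]
    exact hy
  obtain ⟨y', hy', rfl⟩ := hyF
  have hxy' : Commute x y' := Subtype.ext hxy
  have hcomm : x ^ j * y' = y' * x ^ j := (hxy'.zpow_left j).eq
  have h4 := hfpf (x ^ j) huU₀ hu1 y' hy' hcomm
  apply hy1
  rw [h4]
  rfl

end Cfsg.Agent.Helper22
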