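/-
Helper library of seat helper22: two abstract module lemmas for B&G 9.5 (S1402),
as specified by helper1 (insight 1626): `bg95_frob_ab`, `bg95_endgame_ab`.
-/
import Mathlib
import Cfsg.Agent.Helper70.FrobAct
import Cfsg.Agent.Helper35.CoprimeAbelian
import Cfsg.Agent.Helper35.CoprimeGen
import Cfsg.Agent.Helper22.Transitivity
import Cfsg.Agent.Helper51.Replace

set_option autoImplicit false

namespace Cfsg.Agent.Helper22

open Subgroup
open scoped commutatorElement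

universe u

section BG95Mod

variable {X : Type u} [Group X] [Finite X]

omit [Finite X] in
theorem bg95_centralizer_zpowers (c : X) :
    centralizer ((zpowers c : Subgroup X) : Set X) = centralizer ({c} : Set X) := by
  ext g
  constructor
  · intro hg
    rw [mem_centralizer_iff] at hg ⊢
    intro h hh
    rw [Set.mem_singleton_iff] at hh
    subst hh
    exact hg _ (mem_zpowers _)
  · intro hg
    rw [mem_centralizer_iff] at hg ⊢
    intro h hh
    obtain ⟨k, rfl⟩ := mem_zpowers_iff.mp hh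
    have hc : Commute c g := hg c rfl
    exact (hc.zpow_left k).eq

theorem bg95_mem_normalizer_of_conj {S : Subgroup X} {c : X} (h : ∀ x ∈ S, c * x * c⁻¹ ∈ S) :
    c ∈ normalizer (S : Set X) := by
  have h1 : ∀ n : ℕ, ∀ x ∈ S, c ^ n * x * (c ^ n)⁻¹ ∈ S := by
    intro n
    induction n with
    | zero => intro x hx; simpa using hx
    | succ n ih =>
      intro x hx
      have h2 := h _ (ih x hx)
      have h3 : c ^ (n + 1) * x * (c ^ (n + 1))⁻¹ = c * (c ^ n * x * (c ^ n)⁻¹) * c⁻¹ := by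
        rw [pow_succ']; group
      rw [h3]; exact h2
  have h2 : zpowers c ≤ normalizer (S : Set X) := by
    apply Helper35.le_normalizer_of_forall_conj_mem
    intro a ha x hx
    obtain ⟨n, rfl⟩ := (Submonoid.mem_powers_iff _ _).mp (mem_powers_iff_mem_zpowers.mpr ha)
    exact h1 n x hx
  exact h2 (mem_zpowers c)

theorem bg95_mem_zpowers_of_prime {p : ℕ} [Fact p.Prime] (c e : X) (hcp : c ^ p = 1)
    (he : e ∈ zpowers c) (he1 : e ≠ 1) : c ∈ zpowers e := by
  have hp : p.Prime := Fact.out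
  have hc1 : c ≠ 1 := by
    rintro rfl
    rw [zpowers_one_eq_bot, mem_bot] at he
    exact he1 he
  have hoc : orderOf c = p := orderOf_eq_prime hcp hc1
  have hep : e ^ p = 1 := by
    obtain ⟨k, rfl⟩ := mem_zpowers_iff.mp he
    rw [← zpow_natCast, ← zpow_mul, mul_comm, zpow_mul, zpow_natCast, hcp, one_zpow]
  have hoe : orderOf e = p := orderOf_eq_prime hep he1
  have hle : zpowers e ≤ zpowers c := zpowers_le.mpr he
  have heq : zpowers e = zpowers c := by
    apply Subgroup.eq_of_le_of_card_ge hle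
    rw [Nat.card_zpowers, Nat.card_zpowers, hoc, hoe]
  rw [heq]
  exact mem_zpowers c

theorem bg95_fpf {p s : ℕ} [Fact p.Prime] [Fact s.Prime] (c x : X) (hcp : c ^ p = 1)
    (hxs : x ^ s = 1) (hcx' : c * x ≠ x * c) :
    ∀ e ∈ zpowers c, e ≠ 1 → ∀ u ∈ zpowers x, e * u = u * e → u = 1 := by
  intro e he he1 u hu hcomm
  by_contra hu1
  have h1 : c ∈ zpowers e := bg95_mem_zpowers_of_prime c e hcp he he1
  have h2 : x ∈ zpowers u := bg95_mem_zpowers_of_prime x u hxs hu hu1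
  obtain ⟨k, rfl⟩ := mem_zpowers_iff.mp h1
  obtain ⟨l, rfl⟩ := mem_zpowers_iff.mp h2
  have hc : Commute e u := hcomm
  exact hcx' ((hc.zpow_left k).zpow_right l).eq

/-- Frobenius count: `⟨x⟩ ⋊ ⟨c⟩` (orders `s`, `p`) acting on a `q`-group `H` with
`C_H(x) = 1` gives `#H = #C_H(c) ^ p`. -/
theorem bg95_frob_count {p q s : ℕ} [Fact p.Prime] [Fact q.Prime] [Fact s.Prime]
    (hpq : p ≠ q) (hsq : s ≠ q) (c x : X) (hcp : c ^ p = 1) (hxs : x ^ s = 1)
    (hcx : c * x * c⁻¹ ∈ zpowers x) (hcx' : c * x ≠ x * c)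
    (H : Subgroup X) (hHq : IsPGroup q H)
    (hcH : c ∈ normalizer (H : Set X)) (hxH : x ∈ normalizer (H : Set X))
    (hHx : H ⊓ centralizer ({x} : Set X) = ⊥) :
    Nat.card H = Nat.card ↥(H ⊓ centralizer ({c} : Set X)) ^ p := by
  have hp : p.Prime := Fact.out
  have hq : q.Prime := Fact.out
  have hs : s.Prime := Fact.out
  have hc1 : c ≠ 1 := by
    rintro rfl
    exact hcx' (by simp)
  have hx1 : x ≠ 1 := by
    rintro rfl
    exact hcx' (by simp)
  have hoc : orderOf c = p := orderOf_eq_prime hcp hc1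
  have hox : orderOf x = s := orderOf_eq_prime hxs hx1
  have hE1 : zpowers c ≠ ⊥ := by
    intro h
    have : c ∈ (⊥ : Subgroup X) := h ▸ mem_zpowers c
    exact hc1 (mem_bot.mp this)
  have hcU : c ∈ normalizer ((zpowers x : Subgroup X) : Set X) := by
    apply bg95_mem_normalizer_of_conj
    intro u hu
    obtain ⟨k, rfl⟩ := mem_zpowers_iff.mp hu
    have : c * x ^ k * c⁻¹ = (c * x * c⁻¹) ^ k := by
      rw [conj_zpow]
    rw [this]
    exact zpow_mem hcx k
  have hEU : zpowers c ≤ normalizer ((zpowers x : Subgroup X) : Set X) := zpowers_le.mpr hcU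
  have hUn : ∀ e ∈ zpowers c, ∀ u ∈ zpowers x, e * u * e⁻¹ ∈ zpowers x :=
    fun e he u hu => (mem_normalizer_iff.mp (hEU he) u).mp hu
  have hfpf := bg95_fpf c x hcp hxs hcx'
  have hUEH : zpowers x ⊔ zpowers c ≤ normalizer (H : Set X) :=
    sup_le (zpowers_le.mpr hxH) (zpowers_le.mpr hcH)
  have hHn : ∀ g ∈ zpowers x ⊔ zpowers c, ∀ h ∈ H, g * h * g⁻¹ ∈ H :=
    fun g hg h hh => (mem_normalizer_iff.mp (hUEH hg) h).mp hh
  have hsolv : Group.IsSolvable H := by
    have := hHq.isNilpotent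
    infer_instance
  have hcop : Nat.Coprime (Nat.card H) (Nat.card ↥(zpowers x ⊔ zpowers c)) := by
    obtain ⟨n, hn⟩ := IsPGroup.iff_card.mp hHq
    have hdvd : Nat.card ↥(zpowers x ⊔ zpowers c) ∣ p * s := by
      have := card_sup_dvd_of_le_normalizer hEU
      rw [Nat.card_zpowers, Nat.card_zpowers, hoc, hox, sup_comm] at this
      exact this
    rw [hn]
    apply Nat.Coprime.coprime_dvd_right hdvd
    apply Nat.Coprime.pow_left
    exact Nat.Coprime.mul_right ((Nat.coprime_primes hq hp).mpr (Ne.symm hpq))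
      ((Nat.coprime_primes hq hs).mpr (Ne.symm hsq))
  obtain ⟨hcount, -⟩ := Cfsg.Agent.Helper70.frob_group_main (zpowers x) (zpowers c) H hE1 hUn hfpf
    hHn hsolv hcop
  have hCU : H ⊓ centralizer ((zpowers x : Subgroup X) : Set X) = ⊥ := by
    rw [bg95_centralizer_zpowers]; exact hHx
  have hCUE : H ⊓ centralizer ((zpowers x ⊔ zpowers c : Subgroup X) : Set X) = ⊥ := by
    rw [eq_bot_iff, ← hCU]
    exact inf_le_inf_left _ (centralizer_le (by exact_mod_cast (le_sup_left : zpowers x ≤ zpowers x ⊔ zpowers c)))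
  rw [hCUE, hCU, Subgroup.card_bot, bg95_centralizer_zpowers, Nat.card_zpowers, hoc] at hcount
  simpa using hcount

set_option linter.unusedVariables false in
theorem bg95_frob_ab (hodd : Odd (Nat.card X)) {p q s : ℕ} [Fact p.Prime] [Fact q.Prime]
    [Fact s.Prime] (hpq : p ≠ q) (hsq : s ≠ q)
    (W : Subgroup X) (hWab : ∀ u ∈ W, ∀ v ∈ W, u * v = v * u) (hWq : IsPGroup q W)
    (c x : X) (hcW : c ∈ normalizer (W : Set X)) (hxW : x ∈ normalizer (W : Set X))
    (hcp : c ^ p = 1) (hxs : x ^ s = 1) (hcx : c * x * c⁻¹ ∈ zpowers x) (hcx' : c * x ≠ x * c)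
    (h : W ⊓ centralizer ({c} : Set X) ≤ centralizer ({x} : Set X)) :
    W ≤ centralizer ({x} : Set X) := by
  have hq : q.Prime := Fact.out
  have hs : s.Prime := Fact.out
  have hx1 : x ≠ 1 := by
    rintro rfl
    exact hcx' (by simp)
  have hox : orderOf x = s := orderOf_eq_prime hxs hx1
  have hxN : zpowers x ≤ normalizer (W : Set X) := zpowers_le.mpr hxW
  have hcN : zpowers c ≤ normalizer (W : Set X) := zpowers_le.mpr hcW
  have hVW : (⁅W, zpowers x⁆ : Subgroup X) ≤ W := Helper35.commutator_le_of_le_normalizer hxN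
  have hVq : IsPGroup q (⁅W, zpowers x⁆ : Subgroup X) := hWq.to_le hVW
  have hcU : c ∈ normalizer ((zpowers x : Subgroup X) : Set X) := by
    apply bg95_mem_normalizer_of_conj
    intro u hu
    obtain ⟨k, rfl⟩ := mem_zpowers_iff.mp hu
    have : c * x ^ k * c⁻¹ = (c * x * c⁻¹) ^ k := by
      rw [conj_zpow]
    rw [this]
    exact zpow_mem hcx k
  have hcV : c ∈ normalizer ((⁅W, zpowers x⁆ : Subgroup X) : Set X) :=
    Helper35.le_normalizer_commutator' hcN (zpowers_le.mpr hcU) (mem_zpowers c)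
  have hxV : x ∈ normalizer ((⁅W, zpowers x⁆ : Subgroup X) : Set X) :=
    Helper35.le_normalizer_commutator' hxN le_normalizer (mem_zpowers x)
  have hcop : (Nat.card ↥(zpowers x)).Coprime (Nat.card W) := by
    obtain ⟨n, hn⟩ := IsPGroup.iff_card.mp hWq
    rw [hn, Nat.card_zpowers, hox]
    exact Nat.Coprime.pow_right _ ((Nat.coprime_primes hs hq).mpr hsq)
  have hVx : (⁅W, zpowers x⁆ : Subgroup X) ⊓ centralizer ({x} : Set X) = ⊥ := by
    rw [← bg95_centralizer_zpowers]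
    exact Helper35.commutator_inf_centralizer_eq_bot_of_comm hxN hcop hWab
  have hcount := bg95_frob_count hpq hsq c x hcp hxs hcx hcx' _ hVq hcV hxV hVx
  have hVc : (⁅W, zpowers x⁆ : Subgroup X) ⊓ centralizer ({c} : Set X) = ⊥ := by
    rw [eq_bot_iff, ← hVx]
    intro g hg
    exact ⟨hg.1, h ⟨hVW hg.1, hg.2⟩⟩
  rw [hVc, Subgroup.card_bot, one_pow] at hcount
  have hV : (⁅W, zpowers x⁆ : Subgroup X) = ⊥ := Subgroup.card_eq_one.mp hcount
  have := Subgroup.commutator_eq_bot_iff_le_centralizer.mp hV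
  rw [bg95_centralizer_zpowers] at this
  exact this


omit [Finite X] in
theorem bg95_pow_eq_of_modEq {v : X} {q n m : ℕ} (hv : v ^ q = 1) (h : n ≡ m [MOD q]) :
    v ^ n = v ^ m := by
  have h1 : ∀ k : ℕ, v ^ k = v ^ (k % q) := by
    intro k
    conv_lhs => rw [← Nat.mod_add_div k q]
    rw [pow_add, pow_mul, hv, one_pow, mul_one]
  rw [h1 n, h1 m, show n % q = m % q from h]

theorem bg95_nt {p q : ℕ} [Fact p.Prime] [Fact q.Prime] (a b : ℕ) (ha : a ^ p ≡ 1 [MOD q])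
    (hb : b ^ p ≡ 1 [MOD q]) :
    ∃ i j : ℕ, ¬ (p ∣ i ∧ p ∣ j) ∧ a ^ i * b ^ j ≡ 1 [MOD q] := by
  have hp : p.Prime := Fact.out
  by_cases h1 : a ≡ 1 [MOD q]
  · exact ⟨1, 0, fun h => hp.one_lt.ne' (Nat.dvd_one.mp h.1), by simpa using h1⟩
  · have hα : (a : ZMod q) ^ p = 1 := by
      have := (ZMod.natCast_eq_natCast_iff _ _ _).mpr ha
      push_cast at this
      exact this
    have hβ : (b : ZMod q) ^ p = 1 := by
      have := (ZMod.natCast_eq_natCast_iff _ _ _).mpr hb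
      push_cast at this
      exact this
    have hα1 : (a : ZMod q) ≠ 1 := by
      intro h
      apply h1
      have : (a : ZMod q) = ((1 : ℕ) : ZMod q) := by rw [h]; simp
      exact (ZMod.natCast_eq_natCast_iff _ _ _).mp this
    have hprim : IsPrimitiveRoot (a : ZMod q) p :=
      IsPrimitiveRoot.iff_orderOf.mpr (orderOf_eq_prime hα hα1)
    have : NeZero p := ⟨hp.ne_zero⟩
    obtain ⟨m, -, hm⟩ := hprim.eq_pow_of_pow_eq_one hβ
    refine ⟨m * (p - 1), 1, fun h => hp.one_lt.ne' (Nat.dvd_one.mp h.2), ?_⟩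
    apply (ZMod.natCast_eq_natCast_iff _ _ _).mp
    push_cast
    rw [← hm, pow_one, ← pow_add]
    have h2 : m * (p - 1) + m = p * m := by
      have h3 := hp.one_le
      obtain ⟨p', rfl⟩ : ∃ p', p = p' + 1 := ⟨p - 1, by omega⟩
      rw [Nat.add_sub_cancel]; ring
    rw [h2, pow_mul, hα, one_pow]

theorem bg95_normalizer_zpowers {c x : X} (hcx : c * x * c⁻¹ ∈ zpowers x) :
    c ∈ normalizer ((zpowers x : Subgroup X) : Set X) := by
  apply bg95_mem_normalizer_of_conj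
  intro u hu
  obtain ⟨k, rfl⟩ := mem_zpowers_iff.mp hu
  have : c * x ^ k * c⁻¹ = (c * x * c⁻¹) ^ k := by
    rw [conj_zpow]
  rw [this]
  exact zpow_mem hcx k

omit [Finite X] in
theorem bg95_conj_pow_iter {V : Subgroup X} {d : X} {k : ℕ}
    (hk : ∀ v ∈ V, d * v * d⁻¹ = v ^ k) (n : ℕ) :
    ∀ v ∈ V, d ^ n * v * (d ^ n)⁻¹ = v ^ (k ^ n) := by
  induction n with
  | zero => intro v _; simp
  | succ n ih =>
    intro v hv
    have h3 : d ^ (n + 1) * v * (d ^ (n + 1))⁻¹ = d * (d ^ n * v * (d ^ n)⁻¹) * d⁻¹ := by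
      rw [pow_succ']; group
    rw [h3, ih v hv, ← conj_pow, hk v hv, ← pow_mul, pow_succ']

/-- The Frobenius group `⟨x⟩ ⋊ ⟨c⟩` acting on an elementary abelian `q`-group `W` with small
centralizers: `V = ⁅W, ⟨x⟩⁆` has order `q ^ p`, index at most `q`, and every `d` commuting
with `c` and `x` acts on `V` as a power map. -/
theorem bg95_frob_power {p q s : ℕ} [Fact p.Prime] [Fact q.Prime] [Fact s.Prime]
    (hpq : p ≠ q) (hsq : s ≠ q)
    (W : Subgroup X) (hWab : ∀ u ∈ W, ∀ v ∈ W, u * v = v * u) (hWq : ∀ v ∈ W, v ^ q = 1)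
    (hWc : q ^ 2 ≤ Nat.card ↥W)
    (c x d : X) (hcW : c ∈ normalizer (W : Set X)) (hxW : x ∈ normalizer (W : Set X))
    (hdW : d ∈ normalizer (W : Set X))
    (hcp : c ^ p = 1) (hxs : x ^ s = 1) (hcx : c * x * c⁻¹ ∈ zpowers x) (hcx' : c * x ≠ x * c)
    (hdc : d * c = c * d) (hdx : d * x = x * d)
    (hWx : Nat.card ↥(W ⊓ centralizer ({x} : Set X)) ≤ q)
    (hWcc : Nat.card ↥(W ⊓ centralizer ({c} : Set X)) ≤ q) :
    (⁅W, zpowers x⁆ : Subgroup X) ≤ W ∧
    Nat.card ↥W ≤ q * Nat.card ↥(⁅W, zpowers x⁆ : Subgroup X) ∧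
    Nat.card ↥(⁅W, zpowers x⁆ : Subgroup X) = q ^ p ∧
    ∃ k : ℕ, ∀ v ∈ (⁅W, zpowers x⁆ : Subgroup X), d * v * d⁻¹ = v ^ k := by
  have hp : p.Prime := Fact.out
  have hq : q.Prime := Fact.out
  have hs : s.Prime := Fact.out
  have hx1 : x ≠ 1 := by
    rintro rfl
    exact hcx' (by simp)
  have hox : orderOf x = s := orderOf_eq_prime hxs hx1
  have hWpg : IsPGroup q W := by
    intro g
    refine ⟨1, ?_⟩
    rw [pow_one]
    apply Subtype.ext
    rw [Subgroup.coe_pow, Subgroup.coe_one]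
    exact hWq g g.2
  have hxN : zpowers x ≤ normalizer (W : Set X) := zpowers_le.mpr hxW
  have hcN : zpowers c ≤ normalizer (W : Set X) := zpowers_le.mpr hcW
  have hdN : zpowers d ≤ normalizer (W : Set X) := zpowers_le.mpr hdW
  obtain ⟨V, hVdef⟩ : ∃ V : Subgroup X, V = ⁅W, zpowers x⁆ := ⟨_, rfl⟩
  rw [← hVdef]
  have hVW : V ≤ W := by
    rw [hVdef]; exact Helper35.commutator_le_of_le_normalizer hxN
  have hVq : IsPGroup q V := hWpg.to_le hVW
  have hcU : c ∈ normalizer ((zpowers x : Subgroup X) : Set X) := bg95_normalizer_zpowers hcx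
  have hdU : d ∈ normalizer ((zpowers x : Subgroup X) : Set X) := by
    apply bg95_normalizer_zpowers
    rw [hdx, mul_inv_cancel_right]
    exact mem_zpowers x
  have hcV : c ∈ normalizer (V : Set X) := by
    rw [hVdef]
    exact Helper35.le_normalizer_commutator' hcN (zpowers_le.mpr hcU) (mem_zpowers c)
  have hxV : x ∈ normalizer (V : Set X) := by
    rw [hVdef]
    exact Helper35.le_normalizer_commutator' hxN le_normalizer (mem_zpowers x)
  have hdV : d ∈ normalizer (V : Set X) := by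
    rw [hVdef]
    exact Helper35.le_normalizer_commutator' hdN (zpowers_le.mpr hdU) (mem_zpowers d)
  have hcop : (Nat.card ↥(zpowers x)).Coprime (Nat.card W) := by
    obtain ⟨n, hn⟩ := IsPGroup.iff_card.mp hWpg
    rw [hn, Nat.card_zpowers, hox]
    exact Nat.Coprime.pow_right _ ((Nat.coprime_primes hs hq).mpr hsq)
  have hVx : V ⊓ centralizer ({x} : Set X) = ⊥ := by
    rw [← bg95_centralizer_zpowers, hVdef]
    exact Helper35.commutator_inf_centralizer_eq_bot_of_comm hxN hcop hWab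
  -- `#W ≤ q * #V`
  have hWV : Nat.card ↥W ≤ q * Nat.card ↥V := by
    let f : ↥V × ↥(W ⊓ centralizer ((zpowers x : Subgroup X) : Set X)) → ↥W :=
      fun z => ⟨(z.1 : X) * (z.2 : X), W.mul_mem (hVW z.1.2) z.2.2.1⟩
    have hf : Function.Surjective f := by
      intro w
      obtain ⟨n, hn, c', hc', hw⟩ := Helper35.exists_commutator_mul_fixed hxN hcop
        (Or.inr (Helper35.isSolvable_of_forall_comm hWab)) w.2
      rw [← hVdef] at hn
      exact ⟨(⟨n, hn⟩, ⟨c', hc'⟩), Subtype.ext hw.symm⟩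
    have h1 := Nat.card_le_card_of_surjective f hf
    rw [Nat.card_prod, bg95_centralizer_zpowers] at h1
    calc Nat.card ↥W ≤ Nat.card ↥V * Nat.card ↥(W ⊓ centralizer ({x} : Set X)) := h1
      _ ≤ Nat.card ↥V * q := Nat.mul_le_mul_left _ hWx
      _ = q * Nat.card ↥V := mul_comm _ _
  have hVge : q ≤ Nat.card ↥V := by
    have h1 : q * q ≤ q * Nat.card ↥V := by
      calc q * q = q ^ 2 := by ring
        _ ≤ Nat.card ↥W := hWc
        _ ≤ q * Nat.card ↥V := hWV
    exact Nat.le_of_mul_le_mul_left h1 hq.pos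
  have hcount := bg95_frob_count hpq hsq c x hcp hxs hcx hcx' V hVq hcV hxV hVx
  have hC0le : Nat.card ↥(V ⊓ centralizer ({c} : Set X)) ≤ q :=
    (Subgroup.card_le_of_le (inf_le_inf_right _ hVW)).trans hWcc
  have hC0 : Nat.card ↥(V ⊓ centralizer ({c} : Set X)) = q := by
    obtain ⟨n, hn⟩ := IsPGroup.iff_card.mp (hVq.to_le (inf_le_left : V ⊓ centralizer ({c} : Set X) ≤ V))
    have hn0 : n ≠ 0 := by
      rintro rfl
      rw [pow_zero] at hn
      rw [hn, one_pow] at hcount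
      have := hq.two_le
      omega
    have hn1 : n ≤ 1 := by
      rw [hn] at hC0le
      have : q ^ n ≤ q ^ 1 := by rwa [pow_one]
      exact (Nat.pow_le_pow_iff_right hq.one_lt).mp this
    have : n = 1 := by omega
    rw [hn, this, pow_one]
  have hVcard : Nat.card ↥V = q ^ p := by rw [hcount, hC0]
  refine ⟨hVW, hWV, hVcard, ?_⟩
  -- a generator `v0` of `C_V(c)`
  obtain ⟨v0, hv0, hv01⟩ : ∃ v0 ∈ V ⊓ centralizer ({c} : Set X), v0 ≠ 1 := by
    by_contra hcon
    push Not at hcon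
    have hbot : V ⊓ centralizer ({c} : Set X) = ⊥ := (Subgroup.eq_bot_iff_forall _).mpr hcon
    rw [hbot, Subgroup.card_bot] at hC0
    have := hq.two_le
    omega
  have hov0 : orderOf v0 = q := orderOf_eq_prime (hWq v0 (hVW hv0.1)) hv01
  have hzp : zpowers v0 = V ⊓ centralizer ({c} : Set X) := by
    apply Subgroup.eq_of_le_of_card_ge (zpowers_le.mpr hv0)
    rw [Nat.card_zpowers, hov0, hC0]
  have hcv0 : Commute c v0 := (mem_centralizer_iff.mp hv0.2) c rfl
  have hcd : Commute c d := hdc.symm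
  have hdv0 : d * v0 * d⁻¹ ∈ V ⊓ centralizer ({c} : Set X) := by
    refine Subgroup.mem_inf.mpr ⟨(mem_normalizer_iff.mp hdV v0).mp hv0.1, ?_⟩
    rw [mem_centralizer_iff]
    intro h hh
    rw [Set.mem_singleton_iff] at hh
    subst hh
    exact ((hcd.mul_right hcv0).mul_right hcd.inv_right).eq
  rw [← hzp] at hdv0
  obtain ⟨k, hk⟩ := (Submonoid.mem_powers_iff _ _).mp (mem_powers_iff_mem_zpowers.mpr hdv0)
  refine ⟨k, ?_⟩
  let Vk : Subgroup X :=
    { carrier := {v | v ∈ V ∧ d * v * d⁻¹ = v ^ k}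
      mul_mem' := by
        intro a b ha hb
        refine ⟨V.mul_mem ha.1 hb.1, ?_⟩
        have h1 : d * (a * b) * d⁻¹ = (d * a * d⁻¹) * (d * b * d⁻¹) := by group
        have h2 : Commute a b := hWab a (hVW ha.1) b (hVW hb.1)
        rw [h1, ha.2, hb.2, h2.mul_pow]
      one_mem' := ⟨V.one_mem, by simp⟩
      inv_mem' := by
        intro a ha
        refine ⟨V.inv_mem ha.1, ?_⟩
        have h1 : d * a⁻¹ * d⁻¹ = (d * a * d⁻¹)⁻¹ := by group
        rw [h1, ha.2, inv_pow] }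
  have hVkmem : ∀ v, v ∈ Vk ↔ v ∈ V ∧ d * v * d⁻¹ = v ^ k := fun v => Iff.rfl
  have hVkV : Vk ≤ V := fun v hv => ((hVkmem v).mp hv).1
  have hVkq : IsPGroup q Vk := hVq.to_le hVkV
  have hconj : ∀ g : X, d * g = g * d → g ∈ normalizer (V : Set X) → g ∈ normalizer (Vk : Set X) := by
    intro g hdg hgV
    apply bg95_mem_normalizer_of_conj
    intro v hv
    rw [hVkmem] at hv ⊢
    refine ⟨(mem_normalizer_iff.mp hgV v).mp hv.1, ?_⟩
    have h1 : d * (g * v * g⁻¹) * d⁻¹ = (d * g) * v * (d * g)⁻¹ := by group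
    have h2 : (g * d) * v * (g * d)⁻¹ = g * (d * v * d⁻¹) * g⁻¹ := by group
    rw [h1, hdg, h2, hv.2, conj_pow]
  have hcVk : c ∈ normalizer (Vk : Set X) := hconj c hdc hcV
  have hxVk : x ∈ normalizer (Vk : Set X) := hconj x hdx hxV
  have hVkx : Vk ⊓ centralizer ({x} : Set X) = ⊥ := by
    rw [eq_bot_iff, ← hVx]
    exact inf_le_inf_right _ hVkV
  have hcountk := bg95_frob_count hpq hsq c x hcp hxs hcx hcx' Vk hVkq hcVk hxVk hVkx
  have hv0k : v0 ∈ Vk ⊓ centralizer ({c} : Set X) :=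
    ⟨(hVkmem v0).mpr ⟨hv0.1, hk.symm⟩, hv0.2⟩
  have hCk : Vk ⊓ centralizer ({c} : Set X) = V ⊓ centralizer ({c} : Set X) := by
    apply le_antisymm (inf_le_inf_right _ hVkV)
    rw [← hzp]
    exact zpowers_le.mpr hv0k
  rw [hCk, hC0] at hcountk
  have hVkeq : Vk = V := Subgroup.eq_of_le_of_card_ge hVkV (by rw [hcountk, hVcard])
  intro v hv
  rw [← hVkeq] at hv
  exact ((hVkmem v).mp hv).2

theorem bg95_endgame_ab (hodd : Odd (Nat.card X)) {p q s t : ℕ} [Fact p.Prime] [Fact q.Prime]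
    [Fact s.Prime] [Fact t.Prime]
    (hpq : p ≠ q) (hsq : s ≠ q) (htq : t ≠ q)
    (W : Subgroup X) (hWab : ∀ u ∈ W, ∀ v ∈ W, u * v = v * u) (hWq : ∀ v ∈ W, v ^ q = 1)
    (hWc : q ^ 2 ≤ Nat.card ↥W)
    (e b w y : X) (heW : e ∈ normalizer (W : Set X)) (hbW : b ∈ normalizer (W : Set X))
    (hwW : w ∈ normalizer (W : Set X)) (hyW : y ∈ normalizer (W : Set X))
    (heb : e * b = b * e) (hep : e ^ p = 1) (hbp : b ^ p = 1)
    (hcent : ∀ i j : ℕ, ¬ (p ∣ i ∧ p ∣ j) →
      Nat.card ↥(W ⊓ centralizer ({e ^ i * b ^ j} : Set X)) ≤ q)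
    (hws : w ^ s = 1) (hbw : b * w = w * b) (hew : e * w * e⁻¹ ∈ zpowers w)
    (hew' : e * w ≠ w * e) (hwc : Nat.card ↥(W ⊓ centralizer ({w} : Set X)) ≤ q)
    (hyt : y ^ t = 1) (hey : e * y = y * e) (hby : b * y * b⁻¹ ∈ zpowers y)
    (hby' : b * y ≠ y * b) (hyc : Nat.card ↥(W ⊓ centralizer ({y} : Set X)) ≤ q) : False := by
  have hp : p.Prime := Fact.out
  have hq : q.Prime := Fact.out
  -- `p` is odd
  have he1 : e ≠ 1 := by
    rintro rfl
    exact hew' (by simp)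
  have hoe : orderOf e = p := orderOf_eq_prime hep he1
  have hp3 : 3 ≤ p := by
    have h2 : p ≠ 2 := by
      rintro rfl
      have h3 : 2 ∣ Nat.card X := by rw [← hoe]; exact orderOf_dvd_natCard e
      rcases hodd with ⟨m, hm⟩
      omega
    have := hp.two_le
    omega
  have hp10 : ¬ (p ∣ 1 ∧ p ∣ 0) := fun h => hp.one_lt.ne' (Nat.dvd_one.mp h.1)
  have hp01 : ¬ (p ∣ 0 ∧ p ∣ 1) := fun h => hp.one_lt.ne' (Nat.dvd_one.mp h.2)
  have hWe : Nat.card ↥(W ⊓ centralizer ({e} : Set X)) ≤ q := by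
    have := hcent 1 0 hp10
    simpa using this
  have hWb : Nat.card ↥(W ⊓ centralizer ({b} : Set X)) ≤ q := by
    have := hcent 0 1 hp01
    simpa using this
  obtain ⟨hVW, hWV, hV, k, hk⟩ := bg95_frob_power hpq hsq W hWab hWq hWc e w b heW hwW hbW hep hws
    hew hew' heb.symm hbw hwc hWe
  obtain ⟨hV'W, -, hV', k', hk'⟩ := bg95_frob_power hpq htq W hWab hWq hWc b y e hbW hyW heW hbp hyt
    hby hby' heb hey hyc hWb
  obtain ⟨V, hVdef⟩ : ∃ V : Subgroup X, V = ⁅W, zpowers w⁆ := ⟨_, rfl⟩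
  obtain ⟨V', hV'def⟩ : ∃ V' : Subgroup X, V' = ⁅W, zpowers y⁆ := ⟨_, rfl⟩
  rw [← hVdef] at hVW hWV hV hk
  rw [← hV'def] at hV'W hV' hk'
  -- `#(V ⊓ V') ≥ q ^ 2`
  have hnorm : V ≤ normalizer (V' : Set X) := by
    apply Helper35.le_normalizer_of_forall_conj_mem
    intro a ha u hu
    have h1 : a * u = u * a := hWab a (hVW ha) u (hV'W hu)
    rw [h1, mul_inv_cancel_right]
    exact hu
  have hprod := Helper51.card_sup_mul_card_inf_of_le_normalizer V V' hnorm
  have hsup : Nat.card ↥(V ⊔ V') ≤ q * q ^ p := by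
    calc Nat.card ↥(V ⊔ V') ≤ Nat.card ↥W := Subgroup.card_le_of_le (sup_le hVW hV'W)
      _ ≤ q * Nat.card ↥V := hWV
      _ = q * q ^ p := by rw [hV]
  have hD : q ^ 2 ≤ Nat.card ↥(V ⊓ V') := by
    rw [hV, hV'] at hprod
    have h1 : q * q ^ p * q ^ (p - 1) ≤ q * q ^ p * Nat.card ↥(V ⊓ V') := by
      calc q * q ^ p * q ^ (p - 1) = q ^ p * q ^ p := by
            obtain ⟨p', rfl⟩ : ∃ p', p = p' + 1 := ⟨p - 1, by omega⟩
            rw [Nat.add_sub_cancel]; ring
        _ = Nat.card ↥(V ⊔ V') * Nat.card ↥(V ⊓ V') := hprod.symm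
        _ ≤ q * q ^ p * Nat.card ↥(V ⊓ V') := Nat.mul_le_mul_right _ hsup
    have h2 : q ^ (p - 1) ≤ Nat.card ↥(V ⊓ V') :=
      Nat.le_of_mul_le_mul_left h1 (Nat.mul_pos hq.pos (pow_pos hq.pos p))
    calc q ^ 2 ≤ q ^ (p - 1) := Nat.pow_le_pow_right hq.pos (by omega)
      _ ≤ Nat.card ↥(V ⊓ V') := h2
  -- a non-identity element of `V ⊓ V'`
  obtain ⟨v1, hv1, hv11⟩ : ∃ v1 ∈ V ⊓ V', v1 ≠ 1 := by
    by_contra hcon
    push Not at hcon
    have hbot : V ⊓ V' = ⊥ := (Subgroup.eq_bot_iff_forall _).mpr hcon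
    rw [hbot, Subgroup.card_bot] at hD
    have h2 := hq.two_le
    nlinarith
  have hov1 : orderOf v1 = q := orderOf_eq_prime (hWq v1 (hVW hv1.1)) hv11
  have hkp : k ^ p ≡ 1 [MOD q] := by
    have h1 := bg95_conj_pow_iter hk p v1 hv1.1
    rw [hbp] at h1
    have h2 : v1 ^ (k ^ p) = v1 ^ 1 := by
      rw [← h1]; simp
    rw [pow_eq_pow_iff_modEq, hov1] at h2
    exact h2
  have hk'p : k' ^ p ≡ 1 [MOD q] := by
    have h1 := bg95_conj_pow_iter hk' p v1 hv1.2
    rw [hep] at h1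
    have h2 : v1 ^ (k' ^ p) = v1 ^ 1 := by
      rw [← h1]; simp
    rw [pow_eq_pow_iff_modEq, hov1] at h2
    exact h2
  obtain ⟨i, j, hij, hmod⟩ := bg95_nt k' k hk'p hkp
  have hcen : V ⊓ V' ≤ W ⊓ centralizer ({e ^ i * b ^ j} : Set X) := by
    intro v hv
    refine Subgroup.mem_inf.mpr ⟨hVW hv.1, ?_⟩
    rw [mem_centralizer_iff]
    intro h hh
    rw [Set.mem_singleton_iff] at hh
    subst hh
    have h1 : b ^ j * v * (b ^ j)⁻¹ = v ^ (k ^ j) := bg95_conj_pow_iter hk j v hv.1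
    have h2 : e ^ i * v * (e ^ i)⁻¹ = v ^ (k' ^ i) := bg95_conj_pow_iter hk' i v hv.2
    have h3 : (e ^ i * b ^ j) * v * (e ^ i * b ^ j)⁻¹ = v := by
      have h4 : (e ^ i * b ^ j) * v * (e ^ i * b ^ j)⁻¹ =
          e ^ i * (b ^ j * v * (b ^ j)⁻¹) * (e ^ i)⁻¹ := by group
      rw [h4, h1, ← conj_pow, h2, ← pow_mul]
      have h5 := bg95_pow_eq_of_modEq (hWq v (hVW hv.1)) hmod
      rw [pow_one] at h5
      exact h5
    calc e ^ i * b ^ j * v = (e ^ i * b ^ j) * v * (e ^ i * b ^ j)⁻¹ * (e ^ i * b ^ j) := by group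
      _ = v * (e ^ i * b ^ j) := by rw [h3]
  have hfin := (hD.trans (Subgroup.card_le_of_le hcen)).trans (hcent i j hij)
  have h2 := hq.two_le
  nlinarith

end BG95Mod

end Cfsg.Agent.Helper22
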