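/-
helper22: a solvable signalizer functor (rank at least 3) whose closure is a solvable `p'`-group
is complete ("closed implies complete").

* `exists_lt_invariant_pow_mem`: a nontrivial solvable subgroup `W` has a proper subgroup `N`,
  invariant under `N_G(W)`, with `W/N` of prime-power exponent.
* `exists_ne_one_mem_inf_of_relIndex`: two hyperplanes of a group of order `≥ p³` meet nontrivially.
* `le_sup_of_mem_sylowSet_of_pow_mem`: `T = M R` for `M ⊴ T` with `T/M` an `r`-group and `R` a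
  Sylow `r`-subgroup of `T`.
* `closure_mem_family`: the closure `⟨θ(a) | a ∈ A#⟩` of a solvable `A`-signalizer functor
  (`|A| ≥ p³`), if it is a solvable `p'`-group, belongs to the family of `θ`.
* `isCompleteSignalizerFunctor_of_closure`, `closure_inf_centralizer_eq`.
-/
import Cfsg.Agent.Helper22.Transitivity
import Cfsg.Agent.Helper22.SolvableCore
import Cfsg.Agent.Helper22.Generation
import Cfsg.Agent.Helper35.SZ

set_option autoImplicit false

namespace Cfsg.Agent.Helper22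

open Subgroup

section Closed

variable {G : Type*} [Group G]

/-- Conjugation-invariance passes to a join of subgroups. -/
theorem conj_mem_iSup {ι : Sort*} (f : ι → Subgroup G) (g : G)
    (h : ∀ i, ∀ x ∈ f i, g * x * g⁻¹ ∈ ⨆ j, f j) : ∀ x ∈ ⨆ i, f i, g * x * g⁻¹ ∈ ⨆ i, f i := by
  have key : (⨆ i, f i) ≤ (⨆ i, f i).comap (MulAut.conj g).toMonoidHom := by
    apply iSup_le
    intro i x hx
    exact h i x hx
  intro x hx
  exact key hx

/-- A nontrivial solvable subgroup `W` of a finite group has a proper subgroup `N`, invariant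
under `N_G(W)`, such that `x ^ r ^ k ∈ N` for all `x ∈ W` (`r` a prime). -/
theorem exists_lt_invariant_pow_mem [Finite G] (W : Subgroup G) (hs : Group.IsSolvable W)
    (hW : W ≠ ⊥) :
    ∃ (N : Subgroup G) (r k : ℕ), r.Prime ∧ N < W ∧
      (∀ g ∈ normalizer (W : Set G), ∀ x ∈ N, g * x * g⁻¹ ∈ N) ∧ ∀ x ∈ W, x ^ r ^ k ∈ N := by
  classical
  have hnt : Nontrivial ↥W := (Subgroup.nontrivial_iff_ne_bot W).mpr hW
  have hlt := Group.IsSolvable.commutator_lt_top_of_nontrivial (G := ↥W)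
  have hcard : Nat.card (Abelianization ↥W) ≠ 1 := by
    intro h
    have h1 : (commutator ↥W).index = 1 := by rw [Subgroup.index_eq_card]; exact h
    exact hlt.ne (Subgroup.index_eq_one.mp h1)
  obtain ⟨r, hr, hrd⟩ := Nat.exists_prime_and_dvd hcard
  have hrf : Fact r.Prime := ⟨hr⟩
  obtain ⟨e, m, hm, hem⟩ := Nat.exists_eq_pow_mul_and_not_dvd
    (Nat.card_pos (α := Abelianization ↥W)).ne' r hr.ne_one
  obtain ⟨f, hf⟩ : ∃ f : ↥W →* Abelianization ↥W,
      f = (powMonoidHom m).comp Abelianization.of := ⟨_, rfl⟩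
  have hfx : ∀ x : ↥W, f x = (Abelianization.of x) ^ m := by
    intro x; rw [hf]; rfl
  refine ⟨f.ker.map W.subtype, r, e, hr, ?_, ?_, ?_⟩
  · refine lt_of_le_of_ne (Subgroup.map_subtype_le _) ?_
    intro heq
    obtain ⟨y, hy⟩ := exists_prime_orderOf_dvd_card' r hrd
    obtain ⟨x, rfl⟩ := QuotientGroup.mk_surjective y
    have hx : (x : G) ∈ f.ker.map W.subtype := by rw [heq]; exact x.2
    obtain ⟨x', hx', hxx⟩ := hx
    have hxe : x' = x := Subtype.ext hxx
    subst hxe
    have h1 : (Abelianization.of x') ^ m = 1 := by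
      rw [← hfx]; exact hx'
    have h2 : orderOf (Abelianization.of x') ∣ m := orderOf_dvd_of_pow_eq_one h1
    have h3 : orderOf (Abelianization.of x') = r := hy
    rw [h3] at h2
    exact hm h2
  · intro g hg x hx
    obtain ⟨x', hx', rfl⟩ := hx
    refine ⟨conjEquivOfMemNormalizer W g hg x', ?_, rfl⟩
    have hx'' : x' ∈ f.ker := hx'
    show _ ∈ f.ker
    rw [MonoidHom.mem_ker] at hx'' ⊢
    rw [hfx] at hx'' ⊢
    have h1 := Abelianization.map_of (conjEquivOfMemNormalizer W g hg).toMonoidHom x'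
    have h2 : Abelianization.of (conjEquivOfMemNormalizer W g hg x') =
        Abelianization.map (conjEquivOfMemNormalizer W g hg).toMonoidHom (Abelianization.of x') :=
      h1.symm
    rw [h2, ← map_pow, hx'', map_one]
  · intro x hx
    refine ⟨⟨x, hx⟩ ^ r ^ e, ?_, by simp⟩
    show _ ∈ f.ker
    rw [MonoidHom.mem_ker, hfx, map_pow, ← pow_mul, ← hem]
    exact pow_card_eq_one'

/-- Two subgroups of index `p` of a group of order at least `p ^ 3` meet nontrivially. -/
theorem exists_ne_one_mem_inf_of_relIndex [Finite G] (p : ℕ) [Fact p.Prime] {A B B' : Subgroup G}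
    (hA3 : p ^ 3 ≤ Nat.card A) (hB : B ≤ A) (hBi : B.relIndex A = p) (hBi' : B'.relIndex A = p) :
    ∃ e ∈ B ⊓ B', e ≠ 1 := by
  have hp : p.Prime := Fact.out
  have h1 : (B ⊓ B').relIndex A ≤ p * p := by
    have := Subgroup.relIndex_inf_le (H := B) (K := B') (L := A)
    rwa [hBi, hBi'] at this
  have h2 : Nat.card ↥(B ⊓ B') * (B ⊓ B').relIndex A = Nat.card A := by
    have := Subgroup.card_mul_index ((B ⊓ B').subgroupOf A)
    rwa [Helper35.card_subgroupOf_of_le (inf_le_left.trans hB)] at this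
  by_contra hne
  push Not at hne
  have hbot : B ⊓ B' = ⊥ := by
    rw [eq_bot_iff]
    intro e he
    exact Subgroup.mem_bot.mpr (hne e he)
  rw [hbot] at h1 h2
  rw [Subgroup.card_bot, one_mul] at h2
  rw [← h2] at hA3
  have h3 : p ^ 3 ≤ p * p := hA3.trans h1
  have hp2 := hp.two_le
  have h4 : p * p * 2 ≤ p ^ 3 := by
    have : p ^ 3 = p * p * p := by ring
    rw [this]
    exact Nat.mul_le_mul_left _ hp2
  have h5 : 0 < p * p := Nat.mul_pos hp.pos hp.pos
  omega

/-- If `M ⊴ T` with `x ^ r ^ k ∈ M` for all `x ∈ T`, and `R` is a Sylow `r`-subgroup of `T`, then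
`T = M R`. -/
theorem le_sup_of_mem_sylowSet_of_pow_mem [Finite G] {r : ℕ} [Fact r.Prime] {T M R : Subgroup G}
    (hMT : M ≤ T) (hTM : T ≤ normalizer (M : Set G)) (hR : R ∈ Helper35.sylowSet r T) (k : ℕ)
    (hk : ∀ x ∈ T, x ^ r ^ k ∈ M) : T ≤ M ⊔ R := by
  have hr : r.Prime := Fact.out
  rw [← Subgroup.relIndex_eq_one]
  have h1 : (M ⊔ R).relIndex T ∣ M.relIndex T := Subgroup.relIndex_dvd_of_le_left T le_sup_left
  have h2 : (M ⊔ R).relIndex T ∣ R.relIndex T := Subgroup.relIndex_dvd_of_le_left T le_sup_right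
  have h3 : ∃ j, M.relIndex T = r ^ j := by
    have hn : (M.subgroupOf T).Normal := (Subgroup.normal_subgroupOf_iff_le_normalizer hMT).mpr hTM
    have hq : IsPGroup r (↥T ⧸ M.subgroupOf T) := by
      intro y
      obtain ⟨x, rfl⟩ := QuotientGroup.mk_surjective y
      refine ⟨k, ?_⟩
      rw [← QuotientGroup.mk_pow, QuotientGroup.eq_one_iff]
      exact Subgroup.mem_subgroupOf.mpr (by simpa using hk x x.2)
    obtain ⟨j, hj⟩ := IsPGroup.iff_card.mp hq
    exact ⟨j, by rw [Subgroup.relIndex, Subgroup.index_eq_card, hj]⟩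
  have h4 : ¬ r ∣ R.relIndex T := by
    have e1 : Nat.card ↥R * R.relIndex T = Nat.card T := by
      have := Subgroup.card_mul_index (R.subgroupOf T)
      rwa [Helper35.card_subgroupOf_of_le hR.1] at this
    rw [hR.2] at e1
    intro hdvd
    have h5 : r ^ ((Nat.card T).factorization r + 1) ∣ Nat.card T := by
      rw [pow_succ]
      conv_rhs => rw [← e1]
      exact Nat.mul_dvd_mul_left _ hdvd
    exact (Nat.pow_succ_factorization_not_dvd (Nat.card_pos (α := T)).ne' hr) h5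
  obtain ⟨j, hj⟩ := h3
  rw [hj] at h1
  obtain ⟨i, _, hi'⟩ := (Nat.dvd_prime_pow hr).mp h1
  rw [hi'] at h2 ⊢
  cases i with
  | zero => simp
  | succ i => exact absurd (dvd_trans (dvd_pow_self r (Nat.succ_ne_zero i)) h2) h4

/-- `θ(C_G(⟨c⟩)) = θ(c)`. -/
theorem signalizerInf_zpowers_eq {p : ℕ} {A : Subgroup G} {θ : G → Subgroup G}
    (hθ : Cfsg.IsSignalizerFunctor p A θ) {c : G} (hc : c ∈ A) (hc1 : c ≠ 1) :
    Cfsg.signalizerInf (zpowers c) θ = θ c := by
  apply le_antisymm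
  · exact iInf_le (fun a : {a : G // a ∈ zpowers c ∧ a ≠ 1} => θ (a : G))
      ⟨c, mem_zpowers c, hc1⟩
  · refine le_iInf (fun b => ?_)
    obtain ⟨k, hk⟩ := Subgroup.mem_zpowers_iff.mp b.2.1
    have hbA : (b : G) ∈ A := by rw [← hk]; exact A.zpow_mem hc k
    refine le_trans (le_inf le_rfl ?_) (hθ.2.2.2 c hc hc1 b hbA b.2.2)
    refine (hθ.1 c hc hc1).trans ?_
    intro x hx
    rw [mem_centralizer_singleton_iff] at hx ⊢
    rw [← hk]
    exact (Commute.zpow_right (show Commute x c from hx) k).eq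

variable [Finite G] {p : ℕ} [Fact p.Prime] {A : Subgroup G}

theorem closure_mem_family_aux (hA : Cfsg.IsElementaryAbelian p A) (hA3 : p ^ 3 ≤ Nat.card A) :
    ∀ (n : ℕ) (θ : G → Subgroup G), Cfsg.IsSolvableSignalizerFunctor p A θ →
      Nat.card ↥(Cfsg.signalizerClosure A θ) ≤ n →
      ¬ p ∣ Nat.card ↥(Cfsg.signalizerClosure A θ) →
      Group.IsSolvable ↥(Cfsg.signalizerClosure A θ) →
      Cfsg.signalizerClosure A θ ∈ Cfsg.signalizerFamily p A θ := by
  have hp : p.Prime := Fact.out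
  have hA1 : A ≠ ⊥ := by
    intro h
    rw [h, Subgroup.card_bot] at hA3
    have : 1 < p ^ 3 := Nat.one_lt_pow (by norm_num) hp.one_lt
    omega
  intro n
  induction n with
  | zero =>
    intro θ _ hn _ _
    have := Nat.card_pos (α := ↥(Cfsg.signalizerClosure A θ))
    omega
  | succ n ih =>
    intro θ hθ hn hWp hWs
    obtain ⟨W, hW⟩ : ∃ W, W = Cfsg.signalizerClosure A θ := ⟨_, rfl⟩
    rw [← hW] at hn hWp hWs ⊢
    have hθW : ∀ a ∈ A, a ≠ 1 → θ a ≤ W := fun a ha ha1 => by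
      rw [hW]
      exact le_iSup (fun a : {a : G // a ∈ A ∧ a ≠ 1} => θ (a : G)) ⟨a, ha, ha1⟩
    have hAW : A ≤ normalizer (W : Set G) := by
      apply le_normalizer_of_conj_mem
      intro b hb x hx
      rw [hW] at hx ⊢
      exact conj_mem_iSup _ b (fun i y hy =>
        (le_iSup (fun a : {a : G // a ∈ A ∧ a ≠ 1} => θ (a : G)) i)
          (hθ.1.2.2.1 i.1 i.2.1 i.2.2 b hb y hy)) x hx
    by_cases hWbot : W = ⊥
    · rw [hWbot]; exact bot_mem_family
    obtain ⟨N, r, k, hr, hNW, hNinv, hNpow⟩ := exists_lt_invariant_pow_mem W hWs hWbot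
    have hrf : Fact r.Prime := ⟨hr⟩
    -- the subfunctor `θ ∩ N`
    have hθ' : Cfsg.IsSolvableSignalizerFunctor p A (fun c => θ c ⊓ N) := by
      refine ⟨⟨?_, ?_, ?_, ?_⟩, ?_⟩
      · intro a ha ha1; exact inf_le_left.trans (hθ.1.1 a ha ha1)
      · intro a ha ha1 h
        exact hθ.1.2.1 a ha ha1 (h.trans (Subgroup.card_dvd_of_le inf_le_left))
      · intro a ha ha1 b hb x hx
        exact ⟨hθ.1.2.2.1 a ha ha1 b hb x hx.1, hNinv b (hAW hb) x hx.2⟩
      · intro a ha ha1 b hb hb1 x hx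
        exact ⟨hθ.1.2.2.2 a ha ha1 b hb hb1 ⟨hx.1.1, hx.2⟩, hx.1.2⟩
      · intro a ha ha1
        exact Helper35.isSolvable_of_le inf_le_left (hθ.2 a ha ha1)
    obtain ⟨N₀, hN₀⟩ : ∃ N₀, N₀ = Cfsg.signalizerClosure A (fun c => θ c ⊓ N) := ⟨_, rfl⟩
    have hN₀N : N₀ ≤ N := by
      rw [hN₀]; exact iSup_le (fun a => inf_le_right)
    have hN₀W : N₀ ≤ W := hN₀N.trans hNW.le
    have hle : ∀ a ∈ A, a ≠ 1 → θ a ⊓ N ≤ N₀ := fun a ha ha1 => by
      rw [hN₀]
      exact le_iSup (fun a : {a : G // a ∈ A ∧ a ≠ 1} => θ (a : G) ⊓ N) ⟨a, ha, ha1⟩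
    have hN₀fam' : N₀ ∈ Cfsg.signalizerFamily p A (fun c => θ c ⊓ N) := by
      rw [hN₀]
      apply ih _ hθ'
      · rw [← hN₀]
        have := card_lt_of_lt (lt_of_le_of_lt hN₀N hNW)
        omega
      · rw [← hN₀]; exact fun h => hWp (h.trans (Subgroup.card_dvd_of_le hN₀W))
      · rw [← hN₀]; exact Helper35.isSolvable_of_le hN₀W hWs
    have hN₀fam : N₀ ∈ Cfsg.signalizerFamily p A θ :=
      ⟨hN₀fam'.1, hN₀fam'.2.1, hN₀fam'.2.2.1,
        fun a ha ha1 => (hN₀fam'.2.2.2 a ha ha1).trans inf_le_left⟩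
    -- `N₀` is normal in `W`
    have hWN₀ : W ≤ normalizer (N₀ : Set G) := by
      rw [hW]
      apply iSup_le
      rintro ⟨d, hd, hd1⟩
      show θ d ≤ normalizer (N₀ : Set G)
      apply le_of_index_p_centralizers_le p A (θ d) hA hA1 (hθ.1.2.1 d hd hd1)
        (le_normalizer_of_conj_mem (hθ.1.2.2.1 d hd hd1))
      intro B' hB' hBi'
      apply le_normalizer_of_conj_mem
      intro g hg x hx
      have hsub : N₀ ≤ N₀.comap (MulAut.conj g).toMonoidHom := by
        conv_lhs => rw [hN₀]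
        apply iSup_le
        rintro ⟨c, hc, hc1⟩
        show θ c ⊓ N ≤ _
        apply le_of_index_p_centralizers_le p A (θ c ⊓ N) hA hA1 (hθ'.1.2.1 c hc hc1)
          (le_normalizer_of_conj_mem (hθ'.1.2.2.1 c hc hc1))
        intro B hB hBi y hy
        obtain ⟨e, he, he1⟩ := exists_ne_one_mem_inf_of_relIndex p hA3 hB hBi hBi'
        have heA : e ∈ A := hB he.1
        have hye : y ∈ θ e := hθ.1.2.2.2 c hc hc1 e heA he1
          ⟨hy.1.1, centralizer_le (Set.singleton_subset_iff.mpr he.1) hy.2⟩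
        have hge : g ∈ θ e := hθ.1.2.2.2 d hd hd1 e heA he1
          ⟨hg.1, centralizer_le (Set.singleton_subset_iff.mpr he.2) hg.2⟩
        have hgW : g ∈ W := hθW d hd hd1 hg.1
        show g * y * g⁻¹ ∈ N₀
        exact hle e heA he1 ⟨(θ e).mul_mem ((θ e).mul_mem hge hye) ((θ e).inv_mem hge),
          hNinv g (le_normalizer hgW) y hy.1.2⟩
      exact hsub hx
    -- a maximal `r`-member of the family
    obtain ⟨S, hSmax, _⟩ := exists_isMaxSignalizer_ge (p := p) (A := A) (θ := θ) (q := r)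
      (S := ⊥) bot_mem_family IsPGroup.of_bot
    have hSfam := hSmax.1
    have hSW : S ≤ W := by
      apply le_of_index_p_centralizers_le p A S hA hA1 hSfam.2.1
        (le_normalizer_of_mem_signalizerFamily hSfam)
      intro B hB hBi
      obtain ⟨e, he, he1⟩ := exists_ne_one_mem_inf_of_relIndex p hA3 hB hBi hBi
      exact (inf_le_inf_left _ (centralizer_le (Set.singleton_subset_iff.mpr he.1))).trans
        ((hSfam.2.2.2 e (hB he.1) he1).trans (hθW e (hB he.1) he1))
    have hSN₀ : S ⊔ N₀ ∈ Cfsg.signalizerFamily p A θ :=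
      sup_mem_family hA hSfam hN₀fam (hSW.trans hWN₀)
    refine mem_family_of_le hSN₀ ?_ hAW
    rw [hW]
    apply iSup_le
    rintro ⟨c, hc, hc1⟩
    show θ c ≤ S ⊔ N₀
    have hzc : zpowers c ≤ A := (zpowers_le).mpr hc
    have hzc1 : zpowers c ≠ ⊥ := by
      rw [Ne, zpowers_eq_bot]; exact hc1
    have hR := inf_centralizer_mem_sylowSet hA hA3 hθ r hSmax hzc hzc1
    rw [signalizerInf_zpowers_eq hθ.1 hc hc1] at hR
    have h1 : θ c ≤ (θ c ⊓ N) ⊔ (S ⊓ centralizer ((zpowers c : Subgroup G) : Set G)) := by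
      refine le_sup_of_mem_sylowSet_of_pow_mem inf_le_left ?_ hR k
        (fun x hx => ⟨(θ c).pow_mem hx _, hNpow x (hθW c hc hc1 hx)⟩)
      apply le_normalizer_of_conj_mem
      intro g hg x hx
      exact ⟨(θ c).mul_mem ((θ c).mul_mem hg hx.1) ((θ c).inv_mem hg),
        hNinv g (le_normalizer (hθW c hc hc1 hg)) x hx.2⟩
    exact h1.trans (sup_le ((hle c hc hc1).trans le_sup_right) (inf_le_left.trans le_sup_left))

/-- **Closed implies complete.**  Let `θ` be a solvable `A`-signalizer functor on the finite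
group `G`, `A` elementary abelian of order at least `p ^ 3`.  If the closure `⟨θ(a) | a ∈ A#⟩`
is a solvable group of order prime to `p`, then it belongs to the family of `θ`. -/
theorem closure_mem_family (hA : Cfsg.IsElementaryAbelian p A) (hA3 : p ^ 3 ≤ Nat.card A)
    {θ : G → Subgroup G} (hθ : Cfsg.IsSolvableSignalizerFunctor p A θ)
    (hWp : ¬ p ∣ Nat.card ↥(Cfsg.signalizerClosure A θ))
    (hWs : Group.IsSolvable ↥(Cfsg.signalizerClosure A θ)) :
    Cfsg.signalizerClosure A θ ∈ Cfsg.signalizerFamily p A θ :=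
  closure_mem_family_aux hA hA3 _ θ hθ le_rfl hWp hWs

/-- Under the hypotheses of `closure_mem_family`, `⟨θ(b) | b⟩ ∩ C_G(a) = θ(a)`. -/
theorem closure_inf_centralizer_eq (hA : Cfsg.IsElementaryAbelian p A) (hA3 : p ^ 3 ≤ Nat.card A)
    {θ : G → Subgroup G} (hθ : Cfsg.IsSolvableSignalizerFunctor p A θ)
    (hWp : ¬ p ∣ Nat.card ↥(Cfsg.signalizerClosure A θ))
    (hWs : Group.IsSolvable ↥(Cfsg.signalizerClosure A θ)) {a : G} (ha : a ∈ A) (ha1 : a ≠ 1) :
    Cfsg.signalizerClosure A θ ⊓ centralizer {a} = θ a :=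
  le_antisymm ((closure_mem_family hA hA3 hθ hWp hWs).2.2.2 a ha ha1)
    (le_inf (le_iSup (fun a : {a : G // a ∈ A ∧ a ≠ 1} => θ (a : G)) ⟨a, ha, ha1⟩)
      (hθ.1.1 a ha ha1))

/-- Under the hypotheses of `closure_mem_family`, `θ` is complete. -/
theorem isCompleteSignalizerFunctor_of_closure (hA : Cfsg.IsElementaryAbelian p A)
    (hA3 : p ^ 3 ≤ Nat.card A) {θ : G → Subgroup G}
    (hθ : Cfsg.IsSolvableSignalizerFunctor p A θ)
    (hWp : ¬ p ∣ Nat.card ↥(Cfsg.signalizerClosure A θ))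
    (hWs : Group.IsSolvable ↥(Cfsg.signalizerClosure A θ)) :
    Cfsg.IsCompleteSignalizerFunctor p A θ :=
  ⟨hθ.1, Cfsg.signalizerClosure A θ, (closure_mem_family hA hA3 hθ hWp hWs).2.2.1, hWp,
    fun _ ha ha1 => closure_inf_centralizer_eq hA hA3 hθ hWp hWs ha ha1⟩

end Closed

end Cfsg.Agent.Helper22
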