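import Cfsg.Agent.Helper22.Transport

set_option autoImplicit false

/-!
# Tools for the extended 2-layer (helper22)

* `pPrimeCoreCentralizer p A`: `O_{p'}(C_G(A))` as a subgroup of `G`; `pPrimeCoreCentralizer_map_equiv`.
* `exists_sylow_map_conj`: the conjugates of a Sylow subgroup of a normal subgroup `N` are Sylow
  subgroups of `N`.
-/

namespace Cfsg.Agent.Helper22

open Subgroup
open scoped Pointwise

section
variable {G : Type*} [Group G]

/-- `O_{p'}(C_G(A))` as a subgroup of `G`. -/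
def pPrimeCoreCentralizer (p : ℕ) (A : Subgroup G) : Subgroup G :=
  (Cfsg.pPrimeCore p ↥(centralizer (A : Set G))).map (centralizer (A : Set G)).subtype

theorem pPrimeCoreCentralizer_map_equiv (p : ℕ) (e : G ≃* G) (A : Subgroup G) :
    pPrimeCoreCentralizer p (A.map (e : G →* G)) = (pPrimeCoreCentralizer p A).map (e : G →* G) := by
  unfold pPrimeCoreCentralizer
  rw [pPrimeCore_subtype_map_equiv p e (centralizer (A : Set G))]
  exact (congrArg (fun C : Subgroup G => (Cfsg.pPrimeCore p ↥C).map C.subtype)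
    (map_centralizer_equiv e A)).symm

theorem pPrimeCoreCentralizer_le_centralizer (p : ℕ) (A : Subgroup G) :
    pPrimeCoreCentralizer p A ≤ centralizer (A : Set G) :=
  map_subtype_le _

/-- Conjugates of a Sylow subgroup of a normal subgroup `N` are again Sylow subgroups of `N`. -/
theorem exists_sylow_map_conj {p : ℕ} (N : Subgroup G) [N.Normal] (T : Sylow p N) (g : G) :
    ∃ T' : Sylow p N, (T' : Subgroup N).map N.subtype =
      ((T : Subgroup N).map N.subtype).map (MulAut.conj g).toMonoidHom := by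
  refine ⟨(MulAut.conjNormal g : MulAut N) • T, ?_⟩
  rw [Sylow.pointwise_smul_def]
  ext x
  constructor
  · rintro ⟨n, hn, rfl⟩
    rw [SetLike.mem_coe, Subgroup.mem_smul_pointwise_iff_exists] at hn
    obtain ⟨t, ht, rfl⟩ := hn
    exact ⟨(t : G), ⟨t, ht, rfl⟩, rfl⟩
  · rintro ⟨_, ⟨t, ht, rfl⟩, rfl⟩
    exact ⟨(MulAut.conjNormal g : MulAut N) • t, Subgroup.smul_mem_pointwise_smul t _ _ ht, rfl⟩


/-- Two Sylow subgroups of a subgroup `N` of a finite group are conjugate by an element of `N`. -/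
theorem sylow_conj_of_subgroup [Finite G] {p : ℕ} [Fact p.Prime] (N : Subgroup G)
    (T T₁ : Sylow p N) :
    ∃ n ∈ N, (T₁ : Subgroup N).map N.subtype =
      ((T : Subgroup N).map N.subtype).map (MulAut.conj n).toMonoidHom := by
  obtain ⟨n, hn⟩ := MulAction.exists_smul_eq N T T₁
  refine ⟨n, n.2, ?_⟩
  rw [← hn, Sylow.coe_subgroup_smul]
  ext x
  constructor
  · rintro ⟨m, hm, rfl⟩
    rw [SetLike.mem_coe, Subgroup.mem_smul_pointwise_iff_exists] at hm
    obtain ⟨t, ht, rfl⟩ := hm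
    exact ⟨(t : G), ⟨t, ht, rfl⟩, rfl⟩
  · rintro ⟨_, ⟨t, ht, rfl⟩, rfl⟩
    exact ⟨MulAut.conj n • t, Subgroup.smul_mem_pointwise_smul t _ _ ht, rfl⟩

/-- `O_{p',p}(G) ≤ O_{p'}(G) T` for every Sylow `p`-subgroup `T` of a subgroup `N ≥ O_{p',p}(G)`. -/
theorem pPrimePCore_le_sup_sylow [Finite G] {p : ℕ} [Fact p.Prime] (N : Subgroup G)
    (hQN : Cfsg.pPrimePCore p G ≤ N) (T : Sylow p N) :
    Cfsg.pPrimePCore p G ≤ Cfsg.pPrimeCore p G ⊔ (T : Subgroup N).map N.subtype := by
  intro q hq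
  have hsurj : Function.Surjective
      ((QuotientGroup.mk' (Cfsg.pPrimeCore p G)).comp N.subtype).rangeRestrict :=
    MonoidHom.rangeRestrict_surjective _
  have hQn := pPrimePCore_normal p G
  have hQbar_normal : (((Cfsg.pPrimePCore p G).subgroupOf N).map
      ((QuotientGroup.mk' (Cfsg.pPrimeCore p G)).comp N.subtype).rangeRestrict).Normal :=
    Subgroup.Normal.map inferInstance _ hsurj
  have hQbar_p : IsPGroup p (((Cfsg.pPrimePCore p G).subgroupOf N).map
      ((QuotientGroup.mk' (Cfsg.pPrimeCore p G)).comp N.subtype).rangeRestrict) := by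
    apply IsPGroup.to_le (pCore_isPGroup p (G ⧸ Cfsg.pPrimeCore p G)).comap_subtype
    rintro _ ⟨x, hx, rfl⟩
    rw [SetLike.mem_coe, mem_subgroupOf] at hx
    rw [Subgroup.mem_comap]
    exact hx
  have hle := IsPGroup.le_sylow_of_normal hQbar_p (T.mapSurjective hsurj)
  have hmem : ((QuotientGroup.mk' (Cfsg.pPrimeCore p G)).comp N.subtype).rangeRestrict
      ⟨q, hQN hq⟩ ∈ T.mapSurjective hsurj :=
    hle ⟨⟨q, hQN hq⟩, by rw [SetLike.mem_coe, mem_subgroupOf]; exact hq, rfl⟩
  obtain ⟨t, ht, hteq⟩ := hmem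
  have h1 : QuotientGroup.mk' (Cfsg.pPrimeCore p G) (t : G) =
      QuotientGroup.mk' (Cfsg.pPrimeCore p G) q := congrArg Subtype.val hteq
  have h2 : q * (t : G)⁻¹ ∈ Cfsg.pPrimeCore p G := by
    rw [← QuotientGroup.eq_one_iff]
    have : QuotientGroup.mk' (Cfsg.pPrimeCore p G) (q * (t : G)⁻¹) = 1 := by
      rw [map_mul, map_inv, h1, mul_inv_cancel]
    exact this
  have h3 : q = (q * (t : G)⁻¹) * t := by group
  rw [h3]
  exact mul_mem (mem_sup_left h2) (mem_sup_right ⟨t, ht, rfl⟩)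

end

end Cfsg.Agent.Helper22
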