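import Mathlib
import Cfsg.Agent.Helper90.HTDefs
import Cfsg.Agent.Helper90.BGChain
import Cfsg.Agent.Helper46.BGLIRR
import Cfsg.Agent.Helper37.HTORDC

set_option autoImplicit false

namespace Cfsg.Agent.Helper22.HT5953

open Module Polynomial Cfsg.Agent.Helper90.HT

section geom2

variable {F : Type*} [Field F] {V : Type*} [AddCommGroup V] [Module F V] [FiniteDimensional F V]
  (σ : F →+* F) (h : V → V → F)

variable [Fintype F] (q : ℕ) (hq : Fintype.card F = q ^ 2) (hσ : ∀ a, σ a = a ^ q)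

include hq in
/-- HODD with the order bound (HGUORD, on invariant subspaces) as a hypothesis. -/
theorem ht_odd_core
    (hgu : ∀ (A : Submodule F V) (T' : Module.End F A),
      IsHerm σ (fun u v : A => h (u : V) (v : V)) →
      (∀ v : A, (∀ w : A, h (v : V) (w : V) = 0) → v = 0) →
      HPres (fun u v : A => h (u : V) (v : V)) T' →
      ∀ (r : ℕ) [Fact r.Prime], ¬ r ∣ q → T' ^ r = 1 → T' ≠ 1 →
      ∃ j, 1 ≤ j ∧ j ≤ finrank F A ∧ r ∣ (if Even j then q ^ j - 1 else q ^ j + 1))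
    (hh : IsHerm σ h) (T : Module.End F V) (hT : HPres h T) (r : ℕ) [Fact r.Prime]
    (hr2 : 2 < r) (hrF : (r : F) ≠ 0) (hTr : T ^ r = 1)
    (hi : orderOf ((q : ℕ) : ZMod r) % 4 ≠ 2) (U : Submodule F V)
    (hU : U.map T ≤ U) (hU0 : U ≠ ⊥) (hUk : U ⊓ LinearMap.ker (T - 1) = ⊥) :
    ∃ W' : Submodule F V, W' ≤ U ∧ HTI h W' ∧ W'.map T ≤ W' ∧ W' ≠ ⊥ := by
  classical
  have hr : r.Prime := Fact.out
  have hrq : ¬ r ∣ q := by
    intro hdvd
    obtain ⟨p, hpF⟩ := CharP.exists F
    obtain ⟨k, hp, hk⟩ := FiniteField.card F p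
    have h1 : r ∣ p ^ (k : ℕ) := by
      rw [← hk, hq]
      exact dvd_pow hdvd (by norm_num)
    have h2 : r ∣ p := hr.dvd_of_dvd_pow h1
    have h3 : r = p := (Nat.prime_dvd_prime_iff_eq hr hp).1 h2
    apply hrF
    rw [h3]
    exact CharP.cast_eq_zero F p
  obtain ⟨b, hb⟩ : ∃ b, b = orderOf ((Fintype.card F : ℕ) : ZMod r) := ⟨_, rfl⟩
  have hd : ∀ g : F[X], Irreducible g → g ∣ ∑ j ∈ Finset.range r, (X : F[X]) ^ j →
      g.natDegree = b := by
    intro g hg hdvd
    rw [hb]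
    exact Cfsg.Agent.Helper46.bgl_irr_factor_degree r hrF g hg hdvd
  obtain ⟨i, hi'⟩ : ∃ i, i = orderOf ((q : ℕ) : ZMod r) := ⟨_, rfl⟩
  obtain ⟨hi0, hb0, hc0, hbq, -, -, hc2, -, hcj⟩ :=
    Cfsg.Agent.Helper37.HT5953.ht_ordc r q hr2 hrq i (if Even i then i / 2 else i)
      (if i % 4 = 0 then i else if i % 4 = 2 then i / 2 else 2 * i) hi' rfl rfl
  have hbb : (if Even i then i / 2 else i) = b := by
    rw [hbq, hb, hq]
  have hb_pos : 0 < b := by
    rw [← hbb]
    exact hb0
  have hdvdU : ∀ W : Submodule F V, W ≤ U → W.map T ≤ W → b ∣ finrank F W := by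
    intro W hWU hW
    have h1 := Cfsg.Agent.Helper90.BG.cyc_dvd T r b hrF hTr hd W hW
    have h2 : W ⊓ LinearMap.ker (T - 1) = ⊥ := by
      rw [eq_bot_iff, ← hUk]
      exact inf_le_inf_right _ hWU
    rw [h2, finrank_bot, Nat.sub_zero] at h1
    exact h1
  have hUdim : b ≤ finrank F U := by
    have h1 := hdvdU U le_rfl hU
    have h2 : 0 < finrank F U := by
      rw [Nat.pos_iff_ne_zero]
      intro h0
      exact hU0 (Submodule.finrank_eq_zero.1 h0)
    exact Nat.le_of_dvd h2 h1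
  have hphi0 : ∀ v ∈ U, aeval T (∑ j ∈ Finset.range r, (X : F[X]) ^ j) v ∈ (⊥ : Submodule F V) := by
    intro v hv
    rw [← hUk]
    refine ⟨Cfsg.Agent.Helper90.BG.aeval_mem T U hU _ hv, ?_⟩
    show _ ∈ LinearMap.ker (T - 1)
    rw [LinearMap.mem_ker, ← Module.End.mul_apply,
      Cfsg.Agent.Helper90.BG.sub_one_mul_aeval_phi T r hTr, LinearMap.zero_apply]
  obtain ⟨A, -, hAU, hA, hAdim⟩ := Cfsg.Agent.Helper90.BG.chain_exists T ⊥ U bot_le (by simp) hU _
    (Cfsg.Agent.Helper90.BG.phi_ne_zero r hrF) hphi0 b hd 1 (by rw [finrank_bot]; omega)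
  have hAdim' : finrank F A = b := by
    rw [hAdim, finrank_bot]
    omega
  have hA0 : A ≠ ⊥ := by
    rintro rfl
    rw [finrank_bot] at hAdim'
    omega
  have hTA : ∀ v ∈ A, T v ∈ A := fun v hv => hA (Submodule.mem_map_of_mem hv)
  have hTpow : ∀ k : ℕ, ∀ v ∈ A, (T ^ k) v ∈ A := by
    intro k
    induction k with
    | zero =>
      intro v hv
      simpa using hv
    | succ k ih =>
      intro v hv
      rw [pow_succ, Module.End.mul_apply]
      exact ih _ (hTA v hv)
  obtain ⟨R, hR⟩ : ∃ R : Submodule F V, ∀ v, v ∈ R ↔ v ∈ A ∧ ∀ w ∈ A, h v w = 0 :=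
    ⟨{ carrier := {v | v ∈ A ∧ ∀ w ∈ A, h v w = 0}
       add_mem' := by
         rintro u v ⟨hu, hu'⟩ ⟨hv, hv'⟩
         exact ⟨A.add_mem hu hv, fun w hw => by rw [hh.add_left, hu' w hw, hv' w hw, add_zero]⟩
       zero_mem' := ⟨A.zero_mem, fun w _ => hh.zero_left w⟩
       smul_mem' := by
         rintro a v ⟨hv, hv'⟩
         exact ⟨A.smul_mem a hv, fun w hw => by rw [hh.smul_left, hv' w hw, mul_zero]⟩ },
      fun v => Iff.rfl⟩
  have hRA : R ≤ A := fun v hv => ((hR v).1 hv).1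
  have hRT : R.map T ≤ R := by
    rintro _ ⟨v, hv, rfl⟩
    obtain ⟨hvA, hv'⟩ := (hR v).1 hv
    rw [hR]
    refine ⟨hTA v hvA, fun w hw => ?_⟩
    have hw' : T ((T ^ (r - 1)) w) = w := by
      rw [← Module.End.mul_apply, ← pow_succ', Nat.sub_add_cancel hr.one_le, hTr,
        Module.End.one_apply]
    rw [← hw', hT]
    exact hv' _ (hTpow (r - 1) w hw)
  have hRdim : b ∣ finrank F R := hdvdU R (hRA.trans hAU) hRT
  have hRle : finrank F R ≤ b := by
    rw [← hAdim']
    exact Submodule.finrank_mono hRA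
  by_cases hRA' : R = A
  · refine ⟨A, hAU, ?_, hA, hA0⟩
    intro u hu v hv
    have huR : u ∈ R := by
      rw [hRA']
      exact hu
    exact ((hR u).1 huR).2 v hv
  · exfalso
    have hR0 : R = ⊥ := by
      obtain ⟨c, hc⟩ := hRdim
      have hc' : c = 0 ∨ c = 1 := by
        rcases Nat.lt_or_ge c 2 with h2 | h2
        · omega
        · exfalso
          have h3 : b * 2 ≤ b * c := Nat.mul_le_mul_left b h2
          omega
      rcases hc' with rfl | rfl
      · rw [mul_zero] at hc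
        exact Submodule.finrank_eq_zero.1 hc
      · exfalso
        apply hRA'
        exact Submodule.eq_of_le_of_finrank_eq hRA (by rw [hc, hAdim', mul_one])
    have hnd' : ∀ v : A, (∀ w : A, h (v : V) (w : V) = 0) → v = 0 := by
      intro v hv
      have hvR : (v : V) ∈ R := by
        rw [hR]
        exact ⟨v.2, fun w hw => hv ⟨w, hw⟩⟩
      rw [hR0] at hvR
      exact Subtype.ext ((Submodule.mem_bot F).1 hvR)
    obtain ⟨T', hT'⟩ : ∃ T' : Module.End F A, ∀ v : A, (T' v : V) = T (v : V) :=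
      ⟨T.restrict hTA, fun v => rfl⟩
    have hT'pow : ∀ (k : ℕ) (v : A), ((T' ^ k) v : V) = (T ^ k) (v : V) := by
      intro k
      induction k with
      | zero =>
        intro v
        simp
      | succ k ih =>
        intro v
        rw [pow_succ, Module.End.mul_apply, ih, hT', pow_succ, Module.End.mul_apply]
    have hT'r : T' ^ r = 1 := by
      ext v
      rw [hT'pow, hTr]
      simp
    have hT'1 : T' ≠ 1 := by
      intro h1
      apply hA0
      rw [eq_bot_iff]
      intro v hv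
      have hfix : T v = v := by
        have h2 := hT' ⟨v, hv⟩
        rw [h1] at h2
        simpa using h2.symm
      have hvk : v ∈ U ⊓ LinearMap.ker (T - 1) :=
        ⟨hAU hv, (Cfsg.Agent.Helper90.BG.mem_ker_sub_one T v).2 hfix⟩
      rw [hUk] at hvk
      exact hvk
    have hP' : HPres (fun u v : A => h (u : V) (v : V)) T' := by
      intro u v
      show h (T' u : V) (T' v : V) = h (u : V) (v : V)
      rw [hT', hT', hT]
    obtain ⟨j, hj1, hjA, hjr⟩ := hgu A T' (hh.restrict A) hnd' hP' r hrq hT'r hT'1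
    have hcj' := (hcj j hj1).1 hjr
    have hc2' := hc2 (by rw [hi']; exact hi)
    rw [hc2', hbb] at hcj'
    have hle := Nat.le_of_dvd (by omega) hcj'
    rw [hAdim'] at hjA
    omega

end geom2

end Cfsg.Agent.Helper22.HT5953
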