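import Mathlib
import Cfsg.Agent.Helper90.HTDefs
import Cfsg.Agent.Helper22.HTHODDCore
import Cfsg.Agent.Helper5.HTHGUORD

set_option autoImplicit false

namespace Cfsg.Agent.Helper22.HT5953

open Module Polynomial Cfsg.Agent.Helper90.HT

section geom2

variable {F : Type*} [Field F] {V : Type*} [AddCommGroup V] [Module F V] [FiniteDimensional F V]
  (σ : F →+* F) (h : V → V → F)

variable [Fintype F] (q : ℕ) (hq : Fintype.card F = q ^ 2) (hσ : ∀ a, σ a = a ^ q)

include hq hσ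

/-- HODD (uses HGUORD on an irreducible invariant subspace, ORDC): in the non-self-dual case
every nonzero invariant subspace without fixed vectors contains a nonzero invariant t.i. one. -/
theorem ht_odd (hh : IsHerm σ h) (T : Module.End F V) (hT : HPres h T) (r : ℕ) [Fact r.Prime]
    (hr2 : 2 < r) (hrF : (r : F) ≠ 0) (hTr : T ^ r = 1)
    (hi : orderOf ((q : ℕ) : ZMod r) % 4 ≠ 2) (U : Submodule F V)
    (hU : U.map T ≤ U) (hU0 : U ≠ ⊥) (hUk : U ⊓ LinearMap.ker (T - 1) = ⊥) :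
    ∃ W' : Submodule F V, W' ≤ U ∧ HTI h W' ∧ W'.map T ≤ W' ∧ W' ≠ ⊥ :=
  ht_odd_core σ h q hq
    (fun A T' hh' hnd' hP' r' _ hrq' hTr' hT1' =>
      Cfsg.Agent.Helper5.HT5953.ht_guord σ (fun u v : A => h (u : V) (v : V)) q hq hσ hh' hnd' T'
        hP' r' hrq' hTr' hT1')
    hh T hT r hr2 hrF hTr hi U hU hU0 hUk

end geom2

end Cfsg.Agent.Helper22.HT5953
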