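/-
Helper library of seat helper22: coprime action on metacyclic `p`-groups, `p` odd
(Bender–Glauberman, Lemma 4.6 core).

* `metaCop_abelian`: if a `p'`-group `A` normalises a metacyclic `p`-subgroup `R` (`p` odd) and
  `⁅R, A⁆ = R`, then `R` is abelian.
* `metaCop_isMetacyclic_of_le`: subgroups of a metacyclic subgroup are metacyclic (ambient form).
-/
import Cfsg.Agent.Helper35.CoprimeQuot
import Cfsg.Agent.Helper22.Generation
import Cfsg.Agent.Helper22.Signalizer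
import Cfsg.Agent.Helper87.Metacyclic
import Cfsg.Agent.S0126

set_option autoImplicit false

namespace Cfsg.Agent.Helper22

open Subgroup
open scoped commutatorElement

section metaCop

variable {G : Type*} [Group G]

/-- A multiplicative map on a subgroup commutes with integer powers. -/
theorem metaCop_zpow_of_mul (R : Subgroup G) (f : G → G)
    (hmul : ∀ x ∈ R, ∀ x' ∈ R, f (x * x') = f x * f x') {x : G} (hx : x ∈ R) (n : ℤ) :
    f (x ^ n) = f x ^ n := by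
  let φ : ↥R →* G := MonoidHom.mk' (fun r => f (r : G)) (fun r r' => hmul r r.2 r' r'.2)
  have h := map_zpow φ ⟨x, hx⟩ n
  exact h

/-- An element of order dividing `p` killed by an exponent prime to `p` is trivial. -/
theorem metaCop_eq_one_of_zpow {p : ℕ} (hp : p.Prime) {z : G} (hzp : z ^ p = 1) {l : ℤ}
    (hzl : z ^ l = 1) (hl : ¬ (p : ℤ) ∣ l) : z = 1 := by
  rcases (Nat.dvd_prime hp).mp (orderOf_dvd_of_pow_eq_one hzp) with h | h
  · exact orderOf_eq_one_iff.mp h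
  · exfalso
    apply hl
    rw [← h]
    exact orderOf_dvd_iff_zpow_eq_one.mpr hzl

/-- In a cyclic group of prime order every nontrivial element generates. -/
theorem metaCop_exists_zpow {p : ℕ} (hp : p.Prime) {c e f : G} (hc : orderOf c = p)
    (he : e ∈ zpowers c) (hf : f ∈ zpowers c) (hf1 : f ≠ 1) : ∃ t : ℤ, e = f ^ t := by
  have : Fact p.Prime := ⟨hp⟩
  have hcard : Nat.card ↥(zpowers c) = p := by rw [Nat.card_zpowers, hc]
  have h1 : (⟨f, hf⟩ : ↥(zpowers c)) ≠ 1 := fun h => hf1 (congrArg Subtype.val h)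
  have h2 := mem_zpowers_of_prime_card (g' := (⟨e, he⟩ : ↥(zpowers c))) hcard h1
  obtain ⟨t, ht⟩ := Subgroup.mem_zpowers_iff.mp h2
  refine ⟨t, ?_⟩
  have := congrArg Subtype.val ht
  simpa using this.symm

/-- Left multiplicativity of the commutator when commutators are central. -/
theorem metaCop_comm_mul_left (R : Subgroup G)
    (hc : ∀ x ∈ R, ∀ y ∈ R, ∀ r ∈ R, r * ⁅x, y⁆ = ⁅x, y⁆ * r)
    {x x' y : G} (hx : x ∈ R) (hx' : x' ∈ R) (hy : y ∈ R) :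
    ⁅x * x', y⁆ = ⁅x, y⁆ * ⁅x', y⁆ := by
  have hmem : ⁅x', y⁆ ∈ R := by
    rw [commutatorElement_def]
    exact R.mul_mem (R.mul_mem (R.mul_mem hx' hy) (R.inv_mem hx')) (R.inv_mem hy)
  have h1 : ⁅x * x', y⁆ = x * ⁅x', y⁆ * x⁻¹ * ⁅x, y⁆ := by
    simp only [commutatorElement_def]; group
  rw [h1, hc x' hx' y hy x hx, mul_inv_cancel_right]
  exact hc x hx y hy _ hmem

/-- Right multiplicativity of the commutator when commutators are central. -/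
theorem metaCop_comm_mul_right (R : Subgroup G)
    (hc : ∀ x ∈ R, ∀ y ∈ R, ∀ r ∈ R, r * ⁅x, y⁆ = ⁅x, y⁆ * r)
    {x y y' : G} (hx : x ∈ R) (hy : y ∈ R) (hy' : y' ∈ R) :
    ⁅x, y * y'⁆ = ⁅x, y⁆ * ⁅x, y'⁆ := by
  have h1 : ⁅x, y * y'⁆ = ⁅x, y⁆ * (y * ⁅x, y'⁆ * y⁻¹) := by
    simp only [commutatorElement_def]; group
  rw [h1, hc x hx y' hy' y hy, mul_inv_cancel_right]

/-- Two elements normalising a cyclic group act on it by commuting automorphisms. -/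
theorem metaCop_conj_comm (c g h : G) (hg : g * c * g⁻¹ ∈ zpowers c)
    (hh : h * c * h⁻¹ ∈ zpowers c) :
    (g * h) * c * (g * h)⁻¹ = (h * g) * c * (h * g)⁻¹ := by
  obtain ⟨i, hi⟩ := Subgroup.mem_zpowers_iff.mp hg
  obtain ⟨j, hj⟩ := Subgroup.mem_zpowers_iff.mp hh
  have h1 : (g * h) * c * (g * h)⁻¹ = g * (h * c * h⁻¹) * g⁻¹ := by group
  have h2 : (h * g) * c * (h * g)⁻¹ = h * (g * c * g⁻¹) * h⁻¹ := by group
  rw [h1, h2, ← hi, ← hj, ← conj_zpow, ← conj_zpow, ← hi, ← hj, ← zpow_mul, ← zpow_mul, mul_comm]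

/-- If `⁅R, A⁆ = R` and `R`, `A` normalise the cyclic group `⟨c⟩`, then `R` centralises `c`. -/
theorem metaCop_class_two (R A : Subgroup G) (c : G) (hRA : ⁅R, A⁆ = R)
    (hRc : ∀ g ∈ R, g * c * g⁻¹ ∈ zpowers c) (hAc : ∀ g ∈ A, g * c * g⁻¹ ∈ zpowers c) :
    ∀ r ∈ R, r * c = c * r := by
  have h1 : ⁅R, A⁆ ≤ centralizer {c} := by
    rw [Subgroup.commutator_le]
    intro r hr g hg
    rw [Subgroup.mem_centralizer_singleton_iff]
    have h2 := metaCop_conj_comm c r⁻¹ g⁻¹ (hRc _ (R.inv_mem hr)) (hAc _ (A.inv_mem hg))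
    rw [commutatorElement_def]
    have h3 : r * g * r⁻¹ * g⁻¹ * c =
        (r * g) * ((r⁻¹ * g⁻¹) * c * (r⁻¹ * g⁻¹)⁻¹) * (r⁻¹ * g⁻¹) := by group
    rw [h3, h2]; group
  rw [hRA] at h1
  intro r hr
  exact Subgroup.mem_centralizer_singleton_iff.mp (h1 hr)

/-- Generators of a metacyclic subgroup, in ambient form. -/
theorem metaCop_exists_gens (R : Subgroup G) (hRm : Cfsg.IsMetacyclic ↥R) :
    ∃ a ∈ R, ∃ b ∈ R, (∀ r ∈ R, ∃ (j i : ℤ), r = b ^ j * a ^ i) ∧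
      (∀ x ∈ R, ∀ y ∈ R, ⁅x, y⁆ ∈ zpowers a) := by
  obtain ⟨N, hNn, hNc, hQc⟩ := hRm
  obtain ⟨g, hg⟩ := hNc.exists_generator
  obtain ⟨gq, hgq⟩ := hQc.exists_generator
  obtain ⟨b, rfl⟩ := QuotientGroup.mk_surjective gq
  have hN : ∀ n : ↥R, n ∈ N → ∃ i : ℤ, (n : G) = ((g : ↥R) : G) ^ i := by
    intro n hn
    obtain ⟨i, hi⟩ := Subgroup.mem_zpowers_iff.mp (hg ⟨n, hn⟩)
    refine ⟨i, ?_⟩
    have := congrArg (fun z : ↥N => ((z : ↥R) : G)) hi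
    simpa using this.symm
  refine ⟨((g : ↥R) : G), (g : ↥R).2, (b : G), b.2, ?_, ?_⟩
  · intro r hr
    obtain ⟨j, hj⟩ := Subgroup.mem_zpowers_iff.mp (hgq (QuotientGroup.mk (⟨r, hr⟩ : ↥R)))
    have hmem : b ^ (-j) * (⟨r, hr⟩ : ↥R) ∈ N := by
      rw [← QuotientGroup.eq_one_iff, QuotientGroup.mk_mul, QuotientGroup.mk_zpow, ← hj,
        ← zpow_add]
      simp
    obtain ⟨i, hi⟩ := hN _ hmem
    refine ⟨j, i, ?_⟩
    rw [← hi]
    simp
  · intro x hx y hy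
    have hmem : (⟨x, hx⟩ : ↥R) * ⟨y, hy⟩ * (⟨x, hx⟩ : ↥R)⁻¹ * (⟨y, hy⟩ : ↥R)⁻¹ ∈ N :=
      Helper87.comm_mem_of_isCyclic_quotient N hQc _ _
    obtain ⟨i, hi⟩ := hN _ hmem
    rw [commutatorElement_def]
    exact Subgroup.mem_zpowers_iff.mpr ⟨i, hi.symm⟩

/-- In a class-two situation with commutator of order dividing `p ^ m` (`p` odd), the
`p ^ k`-th power map is multiplicative for `k ≥ m`. -/
theorem metaCop_pow_mul {p : ℕ} (hp : p.Prime) (hp2 : p ≠ 2) {m k : ℕ} (hmk : m ≤ k) (x y : G)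
    (hcx : ⁅y, x⁆ * x = x * ⁅y, x⁆) (hcy : ⁅y, x⁆ * y = y * ⁅y, x⁆)
    (hpow : ⁅y, x⁆ ^ (p ^ m) = 1) : (x * y) ^ (p ^ k) = x ^ (p ^ k) * y ^ (p ^ k) := by
  have hyx : y * x = ⁅y, x⁆ * x * y := by rw [commutatorElement_def]; group
  rw [Cfsg.Agent.S0126.mul_pow_class_two x y ⁅y, x⁆ hcx hcy hyx (p ^ k)]
  have h2 : (∑ i ∈ Finset.range (p ^ k), i) * 2 = p ^ k * (p ^ k - 1) :=
    Finset.sum_range_id_mul_two (p ^ k)
  have hodd : Nat.Coprime (p ^ m) 2 := by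
    apply Nat.Coprime.pow_left
    rw [Nat.coprime_primes hp Nat.prime_two]
    exact hp2
  have hdvd : p ^ m ∣ ∑ i ∈ Finset.range (p ^ k), i := by
    apply hodd.dvd_of_dvd_mul_right
    rw [h2]
    exact Dvd.dvd.mul_right (pow_dvd_pow p hmk) _
  obtain ⟨s, hs⟩ := hdvd
  rw [hs, pow_mul, hpow, one_pow, mul_one]

/-- Powers commute: `(x ^ t) ^ n = (x ^ n) ^ t`. -/
theorem metaCop_zpow_pow (x : G) (t : ℤ) (n : ℕ) : (x ^ t) ^ n = (x ^ n) ^ t := by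
  rw [← zpow_natCast (x ^ t) n, ← zpow_mul, mul_comm, zpow_mul, zpow_natCast]

theorem metaCop_zpow_pow_eq (x : G) (s t : ℤ) (n n' : ℕ) (h : s * (n : ℤ) = t * (n' : ℤ)) :
    (x ^ s) ^ n = (x ^ t) ^ n' := by
  rw [← zpow_natCast (x ^ s) n, ← zpow_mul, ← zpow_natCast (x ^ t) n', ← zpow_mul, h]

/-- **Coprime action on a metacyclic `p`-group, `p` odd**: if `⁅R, A⁆ = R` then `R` is abelian. -/
theorem metaCop_abelian [Finite G] (p : ℕ) [Fact p.Prime] (hp : p ≠ 2) (R A : Subgroup G)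
    (hR : IsPGroup p R) (hRm : Cfsg.IsMetacyclic ↥R) (hA : A ≤ normalizer (R : Set G))
    (hcop : (Nat.card A).Coprime p) (hRA : ⁅R, A⁆ = R) :
    ∀ x ∈ R, ∀ y ∈ R, x * y = y * x := by
  classical
  have hpp : p.Prime := Fact.out
  by_contra hnab
  obtain ⟨a, haR, b, hbR, hform, hcomN⟩ := metaCop_exists_gens R hRm
  -- the derived group is cyclic
  have hle : ⁅R, R⁆ ≤ zpowers a := Subgroup.commutator_le.mpr (fun x hx y hy => hcomN x hx y hy)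
  have hcyc : IsCyclic ↥⁅R, R⁆ := Subgroup.isCyclic_of_le hle
  obtain ⟨g0, hg0⟩ := hcyc.exists_generator
  obtain ⟨c, hcdef⟩ : ∃ c : G, c = (g0 : G) := ⟨_, rfl⟩
  have hcR' : c ∈ ⁅R, R⁆ := by rw [hcdef]; exact g0.2
  have hgen : ∀ z ∈ ⁅R, R⁆, z ∈ zpowers c := by
    intro z hz
    obtain ⟨k, hk⟩ := Subgroup.mem_zpowers_iff.mp (hg0 ⟨z, hz⟩)
    rw [hcdef]
    refine Subgroup.mem_zpowers_iff.mpr ⟨k, ?_⟩
    have := congrArg Subtype.val hk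
    simpa using this
  have hR'R : ⁅R, R⁆ ≤ R := Subgroup.commutator_le_self R
  have hcR : c ∈ R := hR'R hcR'
  have hcomm_mem : ∀ x ∈ R, ∀ y ∈ R, ⁅x, y⁆ ∈ ⁅R, R⁆ :=
    fun x hx y hy => Subgroup.commutator_mem_commutator hx hy
  have hnormc : ∀ g ∈ normalizer (R : Set G), g * c * g⁻¹ ∈ zpowers c := by
    intro g hg
    have h1 := mem_normalizer_commutator_self hg
    exact hgen _ ((mem_normalizer_iff.mp h1 c).mp hcR')
  have hcentral : ∀ r ∈ R, r * c = c * r :=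
    metaCop_class_two R A c hRA (fun g hg => hnormc g (le_normalizer hg))
      (fun g hg => hnormc g (hA hg))
  have hzcentral : ∀ z ∈ ⁅R, R⁆, ∀ r ∈ R, r * z = z * r := by
    intro z hz r hr
    obtain ⟨k, rfl⟩ := Subgroup.mem_zpowers_iff.mp (hgen z hz)
    exact ((show Commute r c from hcentral r hr).zpow_right k).eq
  have hcc : ∀ x ∈ R, ∀ y ∈ R, ∀ r ∈ R, r * ⁅x, y⁆ = ⁅x, y⁆ * r :=
    fun x hx y hy r hr => hzcentral _ (hcomm_mem x hx y hy) r hr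
  have hc1 : c ≠ 1 := by
    intro h
    apply hnab
    intro x hx y hy
    have h1 := hgen _ (hcomm_mem x hx y hy)
    rw [h, Subgroup.zpowers_one_eq_bot, Subgroup.mem_bot] at h1
    exact commutatorElement_eq_one_iff_mul_comm.mp h1
  obtain ⟨m, hm⟩ : ∃ m, orderOf c = p ^ m := by
    obtain ⟨k, hk⟩ := (IsPGroup.iff_orderOf.mp hR) ⟨c, hcR⟩
    exact ⟨k, by rw [← hk]; exact (Subgroup.orderOf_mk c hcR).symm⟩
  have hm1 : 1 ≤ m := by
    rcases Nat.eq_zero_or_pos m with h | h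
    · rw [h, pow_zero, orderOf_eq_one_iff] at hm; exact absurd hm hc1
    · exact h
  obtain ⟨m', rfl⟩ : ∃ m', m = m' + 1 := ⟨m - 1, by omega⟩
  obtain ⟨q, hq⟩ : ∃ q : ℕ, q = p ^ m' := ⟨_, rfl⟩
  have hcpow : c ^ (p ^ (m' + 1)) = 1 := by rw [← hm]; exact pow_orderOf_eq_one c
  obtain ⟨c₁, hc₁def⟩ : ∃ c₁ : G, c₁ = c ^ q := ⟨_, rfl⟩
  have hc₁p : c₁ ^ p = 1 := by rw [hc₁def, ← pow_mul, hq, ← pow_succ]; exact hcpow
  have hc₁1 : c₁ ≠ 1 := by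
    intro h
    rw [hc₁def] at h
    have h1 := orderOf_dvd_of_pow_eq_one h
    rw [hm, hq] at h1
    have h2 := Nat.le_of_dvd (pow_pos hpp.pos _) h1
    have h3 : p ^ m' < p ^ (m' + 1) := Nat.pow_lt_pow_right hpp.one_lt (Nat.lt_succ_self _)
    omega
  have hc₁ord : orderOf c₁ = p := orderOf_eq_prime hc₁p hc₁1
  -- the pairing `⁅x, y⁆ ^ q`
  have hBmem : ∀ x ∈ R, ∀ y ∈ R, ⁅x, y⁆ ^ q ∈ zpowers c₁ := by
    intro x hx y hy
    obtain ⟨t, ht⟩ := Subgroup.mem_zpowers_iff.mp (hgen _ (hcomm_mem x hx y hy))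
    refine Subgroup.mem_zpowers_iff.mpr ⟨t, ?_⟩
    rw [← ht, hc₁def, metaCop_zpow_pow]
  have hBp : ∀ x ∈ R, ∀ y ∈ R, (⁅x, y⁆ ^ q) ^ p = 1 := by
    intro x hx y hy
    obtain ⟨t, ht⟩ := Subgroup.mem_zpowers_iff.mp (hBmem x hx y hy)
    rw [← ht, metaCop_zpow_pow, hc₁p, one_zpow]
  have hBcomm : ∀ x ∈ R, ∀ y ∈ R, ∀ x' ∈ R, ∀ y' ∈ R,
      Commute (⁅x, y⁆ ^ q) (⁅x', y'⁆ ^ q) := by
    intro x hx y hy x' hx' y' hy'
    obtain ⟨s, hs⟩ := Subgroup.mem_zpowers_iff.mp (hBmem x hx y hy)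
    obtain ⟨t, ht⟩ := Subgroup.mem_zpowers_iff.mp (hBmem x' hx' y' hy')
    rw [← hs, ← ht]
    exact (Commute.refl c₁).zpow_zpow s t
  have hBL : ∀ x ∈ R, ∀ x' ∈ R, ∀ y ∈ R, ⁅x * x', y⁆ ^ q = ⁅x, y⁆ ^ q * ⁅x', y⁆ ^ q := by
    intro x hx x' hx' y hy
    rw [metaCop_comm_mul_left R hcc hx hx' hy]
    exact (show Commute ⁅x, y⁆ ⁅x', y⁆ from
      hcc x' hx' y hy _ (hR'R (hcomm_mem x hx y hy))).mul_pow q
  have hBR : ∀ x ∈ R, ∀ y ∈ R, ∀ y' ∈ R, ⁅x, y * y'⁆ ^ q = ⁅x, y⁆ ^ q * ⁅x, y'⁆ ^ q := by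
    intro x hx y hy y' hy'
    rw [metaCop_comm_mul_right R hcc hx hy hy']
    exact (show Commute ⁅x, y⁆ ⁅x, y'⁆ from
      hcc x hx y' hy' _ (hR'R (hcomm_mem x hx y hy))).mul_pow q
  have hBLz : ∀ x ∈ R, ∀ y ∈ R, ∀ n : ℤ, ⁅x ^ n, y⁆ ^ q = (⁅x, y⁆ ^ q) ^ n :=
    fun x hx y hy n => metaCop_zpow_of_mul R (fun x => ⁅x, y⁆ ^ q)
      (fun x hx x' hx' => hBL x hx x' hx' y hy) hx n
  have hBRz : ∀ x ∈ R, ∀ y ∈ R, ∀ n : ℤ, ⁅x, y ^ n⁆ ^ q = (⁅x, y⁆ ^ q) ^ n :=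
    fun x hx y hy n => metaCop_zpow_of_mul R (fun y => ⁅x, y⁆ ^ q)
      (fun y hy y' hy' => hBR x hx y hy y' hy') hy n
  have hBself : ∀ x : G, ⁅x, x⁆ ^ q = 1 := fun x => by rw [commutatorElement_self, one_pow]
  have hBsymm : ∀ x y : G, ⁅y, x⁆ ^ q = (⁅x, y⁆ ^ q)⁻¹ :=
    fun x y => by rw [← commutatorElement_inv, inv_pow]
  have hBconj : ∀ g x y : G, ⁅g * x * g⁻¹, g * y * g⁻¹⁆ ^ q = g * ⁅x, y⁆ ^ q * g⁻¹ := by
    intro g x y
    have h1 : ⁅g * x * g⁻¹, g * y * g⁻¹⁆ = g * ⁅x, y⁆ * g⁻¹ := by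
      simp only [commutatorElement_def]; group
    rw [h1, conj_pow]
  -- the radical
  let RadS : Subgroup G :=
    { carrier := {r | r ∈ R ∧ ∀ y ∈ R, ⁅r, y⁆ ^ q = 1}
      mul_mem' := by
        rintro x x' ⟨hx, hx2⟩ ⟨hx', hx2'⟩
        exact ⟨R.mul_mem hx hx', fun y hy => by
          rw [hBL x hx x' hx' y hy, hx2 y hy, hx2' y hy, one_mul]⟩
      one_mem' := ⟨R.one_mem, fun y _ => by rw [commutatorElement_one_left, one_pow]⟩
      inv_mem' := by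
        rintro x ⟨hx, hx2⟩
        refine ⟨R.inv_mem hx, fun y hy => ?_⟩
        have := hBLz x hx y hy (-1)
        rw [zpow_neg_one, zpow_neg_one, hx2 y hy, inv_one] at this
        exact this }
  have hRadR : RadS ≤ R := fun r hr => hr.1
  have hRadgen : ∀ r ∈ R, ⁅r, a⁆ ^ q = 1 → ⁅r, b⁆ ^ q = 1 → r ∈ RadS := by
    intro r hr ha hb
    refine ⟨hr, fun y hy => ?_⟩
    obtain ⟨j, i, rfl⟩ := hform y hy
    rw [hBR r hr _ (R.zpow_mem hbR j) _ (R.zpow_mem haR i), hBRz r hr b hbR j,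
      hBRz r hr a haR i, ha, hb, one_zpow, one_zpow, one_mul]
  have hR'Rad : ⁅R, R⁆ ≤ RadS := by
    intro z hz
    refine ⟨hR'R hz, fun y hy => ?_⟩
    have h1 : ⁅z, y⁆ = 1 := commutatorElement_eq_one_iff_mul_comm.mpr (hzcentral z hz y hy).symm
    rw [h1, one_pow]
  have hARad : A ≤ normalizer (RadS : Set G) := by
    apply le_normalizer_of_conj_mem
    intro g hg r hr
    have hgR : ∀ y ∈ R, g * y * g⁻¹ ∈ R := fun y hy => (mem_normalizer_iff.mp (hA hg) y).mp hy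
    have hgR' : ∀ y ∈ R, g⁻¹ * y * g ∈ R := fun y hy => by
      have := (mem_normalizer_iff.mp (hA (A.inv_mem hg)) y).mp hy
      rwa [inv_inv] at this
    refine ⟨hgR r hr.1, fun y hy => ?_⟩
    have h1 : y = g * (g⁻¹ * y * g) * g⁻¹ := by group
    rw [h1, hBconj, hr.2 _ (hgR' y hy)]
    group
  have hd1 : ⁅a, b⁆ ^ q ≠ 1 := by
    intro hd
    have haRad : a ∈ RadS := hRadgen a haR (hBself a) hd
    have hbRad : b ∈ RadS := hRadgen b hbR (by rw [hBsymm, hd, inv_one]) (hBself b)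
    have hall : ∀ r ∈ R, r ∈ RadS := by
      intro r hr
      obtain ⟨j, i, rfl⟩ := hform r hr
      exact RadS.mul_mem (RadS.zpow_mem hbRad j) (RadS.zpow_mem haRad i)
    let T : Subgroup G :=
      { carrier := {z | z ∈ zpowers c ∧ z ^ q = 1}
        mul_mem' := by
          rintro z z' ⟨hz, hz2⟩ ⟨hz', hz2'⟩
          refine ⟨(zpowers c).mul_mem hz hz', ?_⟩
          obtain ⟨s, rfl⟩ := Subgroup.mem_zpowers_iff.mp hz
          obtain ⟨t, rfl⟩ := Subgroup.mem_zpowers_iff.mp hz'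
          rw [((Commute.refl c).zpow_zpow s t).mul_pow, hz2, hz2', one_mul]
        one_mem' := ⟨(zpowers c).one_mem, one_pow q⟩
        inv_mem' := by
          rintro z ⟨hz, hz2⟩
          exact ⟨(zpowers c).inv_mem hz, by rw [inv_pow, hz2, inv_one]⟩ }
    have hT : ⁅R, R⁆ ≤ T := Subgroup.commutator_le.mpr
      (fun x hx y hy => ⟨hgen _ (hcomm_mem x hx y hy), (hall x hx).2 y hy⟩)
    exact hc₁1 (by rw [hc₁def]; exact (hT hcR').2)
  have hdord : orderOf (⁅a, b⁆ ^ q) = p := orderOf_eq_prime (hBp a haR b hbR) hd1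
  have hddvd : ∀ i : ℤ, (⁅a, b⁆ ^ q) ^ i = 1 → (p : ℤ) ∣ i := by
    intro i hi
    rw [← hdord]
    exact orderOf_dvd_iff_zpow_eq_one.mpr hi
  -- power maps
  have hψ : ∀ k, m' + 1 ≤ k → ∀ x ∈ R, ∀ y ∈ R,
      (x * y) ^ (p ^ k) = x ^ (p ^ k) * y ^ (p ^ k) := by
    intro k hk x hx y hy
    apply metaCop_pow_mul hpp hp hk x y
    · exact (hcc y hy x hx x hx).symm
    · exact (hcc y hy x hx y hy).symm
    · obtain ⟨t, ht⟩ := Subgroup.mem_zpowers_iff.mp (hgen _ (hcomm_mem y hy x hx))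
      rw [← ht, metaCop_zpow_pow, hcpow, one_zpow]
  have hPm : ∃ x ∈ R, x ^ (p ^ (m' + 1)) = c₁ := by
    obtain ⟨e, he⟩ := Subgroup.mem_zpowers_iff.mp (hle hcR')
    have hpe : (p : ℤ) ∣ e := by
      by_contra hpe
      obtain ⟨n, hn⟩ : ∃ n, orderOf a = p ^ n := by
        obtain ⟨k, hk⟩ := (IsPGroup.iff_orderOf.mp hR) ⟨a, haR⟩
        exact ⟨k, by rw [← hk]; exact (Subgroup.orderOf_mk a haR).symm⟩
      have hcop1 : IsCoprime e ((p : ℤ) ^ n) :=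
        (((Nat.prime_iff_prime_int.mp hpp).irreducible.coprime_iff_not_dvd).mpr hpe).symm.pow_right
      obtain ⟨u, v, huv⟩ := hcop1
      have hapn : a ^ ((p : ℤ) ^ n) = 1 := by
        have h1 : ((p : ℤ) ^ n) = ((orderOf a : ℕ) : ℤ) := by rw [hn]; push_cast; rfl
        rw [h1, zpow_natCast, pow_orderOf_eq_one]
      have ha_c : a = c ^ u := by
        rw [← he, ← zpow_mul]
        have h1 : a ^ (e * u) = a ^ (u * e + v * (p : ℤ) ^ n) := by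
          rw [zpow_add, mul_comm u e, zpow_mul' a v, hapn, one_zpow, mul_one]
        rw [h1, huv, zpow_one]
      apply hnab
      intro x hx y hy
      obtain ⟨j, i, rfl⟩ := hform x hx
      obtain ⟨j', i', rfl⟩ := hform y hy
      have hac : ∀ r ∈ R, Commute r a := by
        intro r hr
        rw [ha_c]
        exact (show Commute r c from hcentral r hr).zpow_right u
      have hba : Commute b a := hac b hbR
      have h1 : Commute (b ^ j * a ^ i) (b ^ j' * a ^ i') := by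
        apply Commute.mul_left
        · apply Commute.mul_right
          · exact (Commute.refl b).zpow_zpow j j'
          · exact hba.zpow_zpow j i'
        · apply Commute.mul_right
          · exact (hba.zpow_zpow j' i).symm
          · exact (Commute.refl a).zpow_zpow i i'
      exact h1.eq
    obtain ⟨e', rfl⟩ := hpe
    refine ⟨a ^ e', R.zpow_mem haR e', ?_⟩
    rw [hc₁def, ← he, hq]
    apply metaCop_zpow_pow_eq
    push_cast
    ring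
  obtain ⟨r, hr⟩ := IsPGroup.iff_card.mp hR
  have hpowR : ∀ x ∈ R, x ^ (p ^ r) = 1 := by
    intro x hx
    have h1 : (⟨x, hx⟩ : ↥R) ^ (Nat.card ↥R) = 1 := pow_card_eq_one'
    rw [hr] at h1
    simpa using congrArg Subtype.val h1
  obtain ⟨k₀, hk₀m, ⟨x₀, hx₀R, hx₀⟩, hk₀'⟩ : ∃ k₀, m' + 1 ≤ k₀ ∧
      (∃ x ∈ R, x ^ (p ^ k₀) = c₁) ∧ ¬ ∃ x ∈ R, x ^ (p ^ (k₀ + 1)) = c₁ := by
    by_contra hno
    have hall : ∀ k, ∃ x ∈ R, x ^ (p ^ (m' + 1 + k)) = c₁ := by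
      intro k
      induction k with
      | zero => exact hPm
      | succ k ih =>
        by_contra h
        exact hno ⟨m' + 1 + k, by omega, ih, h⟩
    obtain ⟨x, hx, hxc⟩ := hall r
    apply hc₁1
    rw [← hxc, Nat.add_comm, pow_add, pow_mul, hpowR x hx, one_pow]
  have hψ0 := hψ k₀ hk₀m
  have hψ1 := hψ (k₀ + 1) (by omega)
  -- the radical meets the preimage of `⟨c₁⟩` in the kernel
  have hi : ∀ ρ ∈ RadS, ρ ^ (p ^ k₀) ∈ zpowers c₁ → ρ ^ (p ^ k₀) = 1 := by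
    intro ρ hρ hmem
    by_contra hne
    obtain ⟨j, i, hρform⟩ := hform ρ hρ.1
    have hbj := R.zpow_mem hbR j
    have hai := R.zpow_mem haR i
    have hi' : (p : ℤ) ∣ i := by
      apply hddvd
      have h1 := hρ.2 b hbR
      rw [hρform, hBL _ hbj _ hai b hbR, hBLz b hbR b hbR, hBself, one_zpow, one_mul,
        hBLz a haR b hbR] at h1
      exact h1
    have hj' : (p : ℤ) ∣ j := by
      have h1 := hρ.2 a haR
      rw [hρform, hBL _ hbj _ hai a haR, hBLz a haR a haR, hBself, one_zpow, mul_one,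
        hBLz b hbR a haR, hBsymm, inv_zpow] at h1
      apply hddvd
      exact inv_eq_one.mp h1
    obtain ⟨i', rfl⟩ := hi'
    obtain ⟨j', rfl⟩ := hj'
    have h2 : ρ ^ (p ^ k₀) = (b ^ j' * a ^ i') ^ (p ^ (k₀ + 1)) := by
      rw [hρform, hψ0 _ hbj _ hai, hψ1 _ (R.zpow_mem hbR j') _ (R.zpow_mem haR i')]
      congr 1
      · apply metaCop_zpow_pow_eq
        push_cast
        ring
      · apply metaCop_zpow_pow_eq
        push_cast
        ring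
    obtain ⟨t, ht⟩ := metaCop_exists_zpow hpp hc₁ord (Subgroup.mem_zpowers c₁) hmem hne
    apply hk₀'
    refine ⟨(b ^ j' * a ^ i') ^ t,
      R.zpow_mem (R.mul_mem (R.zpow_mem hbR j') (R.zpow_mem haR i')) t, ?_⟩
    rw [metaCop_zpow_pow, ← h2, ← ht]
  -- the action of `A` on `⟨c₁⟩`
  have hl : ∀ g ∈ A, ∃ l : ℤ, g * c₁ * g⁻¹ = c₁ ^ l ∧ ¬ (p : ℤ) ∣ l := by
    intro g hg
    obtain ⟨i, hi⟩ := Subgroup.mem_zpowers_iff.mp (hnormc g (hA hg))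
    have h1 : g * c₁ * g⁻¹ = c₁ ^ i := by
      rw [hc₁def, ← conj_pow, ← hi, metaCop_zpow_pow]
    refine ⟨i, h1, fun hdiv => ?_⟩
    obtain ⟨s, rfl⟩ := hdiv
    rw [zpow_mul, zpow_natCast, hc₁p, one_zpow] at h1
    apply hc₁1
    have h2 : c₁ = g⁻¹ * (g * c₁ * g⁻¹) * g := by group
    rw [h2, h1]; group
  have hconjB : ∀ g ∈ A, ∀ l : ℤ, g * c₁ * g⁻¹ = c₁ ^ l → ∀ x ∈ R, ∀ y ∈ R,
      g * ⁅x, y⁆ ^ q * g⁻¹ = (⁅x, y⁆ ^ q) ^ l := by
    intro g hg l hgl x hx y hy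
    obtain ⟨t, ht⟩ := Subgroup.mem_zpowers_iff.mp (hBmem x hx y hy)
    rw [← ht, ← conj_zpow, hgl, ← zpow_mul, ← zpow_mul, mul_comm]
  -- two-dimensionality of `R / Rad`
  have hR3 : ∀ x ∈ R, x ∉ RadS → ∀ r ∈ R, ⁅x, r⁆ ^ q = 1 → ∃ t : ℤ, r * x ^ (-t) ∈ RadS := by
    intro x hx hxRad r hr hxr
    have hcase : ⁅x, a⁆ ^ q ≠ 1 ∨ ⁅x, b⁆ ^ q ≠ 1 := by
      by_contra h
      rw [not_or, not_not, not_not] at h
      exact hxRad (hRadgen x hx h.1 h.2)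
    obtain ⟨j, i, hxform⟩ := hform x hx
    have hbj := R.zpow_mem hbR j
    have hai := R.zpow_mem haR i
    have hexp : ∀ r' ∈ R, ⁅r', x⁆ ^ q = (⁅r', b⁆ ^ q) ^ j * (⁅r', a⁆ ^ q) ^ i := by
      intro r' hr'
      rw [hxform, hBR r' hr' _ hbj _ hai, hBRz r' hr' b hbR, hBRz r' hr' a haR]
    have hrx : ∀ t : ℤ, ⁅r * x ^ (-t), x⁆ ^ q = 1 := by
      intro t
      rw [hBL r hr _ (R.zpow_mem hx _) x hx, hBLz x hx x hx, hBself, one_zpow, mul_one, hBsymm,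
        hxr, inv_one]
    rcases hcase with hxa | hxb
    · obtain ⟨t, ht⟩ := metaCop_exists_zpow hpp hc₁ord (hBmem r hr a haR) (hBmem x hx a haR) hxa
      refine ⟨t, ?_⟩
      have hr' : r * x ^ (-t) ∈ R := R.mul_mem hr (R.zpow_mem hx _)
      have h1 : ⁅r * x ^ (-t), a⁆ ^ q = 1 := by
        rw [hBL r hr _ (R.zpow_mem hx _) a haR, hBLz x hx a haR, ht, ← zpow_add]
        simp
      apply hRadgen _ hr' h1
      have h2 := hexp _ hr'
      rw [hrx t, h1, one_zpow, mul_one] at h2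
      have hj : ¬ (p : ℤ) ∣ j := by
        intro hdiv
        apply hxa
        rw [hxform, hBL _ hbj _ hai a haR, hBLz b hbR a haR, hBLz a haR a haR, hBself, one_zpow,
          mul_one]
        obtain ⟨s, rfl⟩ := hdiv
        rw [zpow_mul, zpow_natCast, hBp b hbR a haR, one_zpow]
      exact metaCop_eq_one_of_zpow hpp (hBp _ hr' b hbR) h2.symm hj
    · obtain ⟨t, ht⟩ := metaCop_exists_zpow hpp hc₁ord (hBmem r hr b hbR) (hBmem x hx b hbR) hxb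
      refine ⟨t, ?_⟩
      have hr' : r * x ^ (-t) ∈ R := R.mul_mem hr (R.zpow_mem hx _)
      have h1 : ⁅r * x ^ (-t), b⁆ ^ q = 1 := by
        rw [hBL r hr _ (R.zpow_mem hx _) b hbR, hBLz x hx b hbR, ht, ← zpow_add]
        simp
      have h2 := hexp _ hr'
      rw [hrx t, h1, one_zpow, one_mul] at h2
      have hi2 : ¬ (p : ℤ) ∣ i := by
        intro hdiv
        apply hxb
        rw [hxform, hBL _ hbj _ hai b hbR, hBLz b hbR b hbR, hBLz a haR b hbR, hBself, one_zpow,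
          one_mul]
        obtain ⟨s, rfl⟩ := hdiv
        rw [zpow_mul, zpow_natCast, hBp a haR b hbR, one_zpow]
      exact hRadgen _ hr' (metaCop_eq_one_of_zpow hpp (hBp _ hr' a haR) h2.symm hi2) h1
  -- the element `u_g = x₀ ^ (-l) * (g x₀ g⁻¹)`
  have hu : ∀ g ∈ A, ∀ l : ℤ, g * c₁ * g⁻¹ = c₁ ^ l →
      x₀ ^ (-l) * (g * x₀ * g⁻¹) ∈ R ∧ (x₀ ^ (-l) * (g * x₀ * g⁻¹)) ^ (p ^ k₀) = 1 ∧
        g * x₀ * g⁻¹ = x₀ ^ l * (x₀ ^ (-l) * (g * x₀ * g⁻¹)) := by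
    intro g hg l hgl
    have hgR : g * x₀ * g⁻¹ ∈ R := (mem_normalizer_iff.mp (hA hg) x₀).mp hx₀R
    refine ⟨R.mul_mem (R.zpow_mem hx₀R _) hgR, ?_, ?_⟩
    · rw [hψ0 _ (R.zpow_mem hx₀R _) _ hgR, metaCop_zpow_pow, conj_pow, hx₀, hgl, ← zpow_add]
      simp
    · rw [← mul_assoc, ← zpow_add]
      simp
  by_cases hcase : ∀ u ∈ R, u ^ (p ^ k₀) = 1 → u ∈ RadS
  · -- Case A
    have key : ∀ g ∈ A, ∀ y ∈ R, ⁅x₀, g * y * g⁻¹ * y⁻¹⁆ ^ q = 1 := by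
      intro g hg y hy
      obtain ⟨l, hgl, hlp⟩ := hl g hg
      obtain ⟨huR, hu1, h2⟩ := hu g hg l hgl
      have huRad := hcase _ huR hu1
      have hgy : g * y * g⁻¹ ∈ R := (mem_normalizer_iff.mp (hA hg) y).mp hy
      have h1 : ⁅g * x₀ * g⁻¹, g * y * g⁻¹⁆ ^ q = (⁅x₀, y⁆ ^ q) ^ l := by
        rw [hBconj, hconjB g hg l hgl x₀ hx₀R y hy]
      have h3 : ⁅g * x₀ * g⁻¹, g * y * g⁻¹⁆ ^ q = (⁅x₀, g * y * g⁻¹⁆ ^ q) ^ l := by
        rw [h2, hBL _ (R.zpow_mem hx₀R l) _ huR _ hgy, hBLz x₀ hx₀R _ hgy, huRad.2 _ hgy, mul_one]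
      have h4 : ⁅x₀, g * y * g⁻¹ * y⁻¹⁆ ^ q = ⁅x₀, g * y * g⁻¹⁆ ^ q * (⁅x₀, y⁆ ^ q)⁻¹ := by
        rw [hBR x₀ hx₀R _ hgy _ (R.inv_mem hy)]
        congr 1
        have := hBRz x₀ hx₀R y hy (-1)
        rw [zpow_neg_one, zpow_neg_one] at this
        exact this
      have h5 : (⁅x₀, g * y * g⁻¹ * y⁻¹⁆ ^ q) ^ l = 1 := by
        rw [h4, ((hBcomm x₀ hx₀R _ hgy x₀ hx₀R y hy).inv_right).mul_zpow, inv_zpow, ← h3, h1,
          mul_inv_cancel]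
      exact metaCop_eq_one_of_zpow hpp (hBp x₀ hx₀R _ (R.mul_mem hgy (R.inv_mem hy))) h5 hlp
    let K : Subgroup G :=
      { carrier := {r | r ∈ R ∧ ⁅x₀, r⁆ ^ q = 1}
        mul_mem' := by
          rintro z z' ⟨hz, hz2⟩ ⟨hz', hz2'⟩
          exact ⟨R.mul_mem hz hz', by rw [hBR x₀ hx₀R z hz z' hz', hz2, hz2', one_mul]⟩
        one_mem' := ⟨R.one_mem, by rw [commutatorElement_one_right, one_pow]⟩
        inv_mem' := by
          rintro z ⟨hz, hz2⟩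
          refine ⟨R.inv_mem hz, ?_⟩
          have := hBRz x₀ hx₀R z hz (-1)
          rw [zpow_neg_one, zpow_neg_one, hz2, inv_one] at this
          exact this }
    have hK : ⁅R, A⁆ ≤ K := by
      rw [Subgroup.commutator_le]
      intro y hy g hg
      have h1 : ⁅y, g⁆ = (g * y * g⁻¹ * y⁻¹)⁻¹ := by rw [commutatorElement_def]; group
      rw [h1]
      apply K.inv_mem
      exact ⟨R.mul_mem ((mem_normalizer_iff.mp (hA hg) y).mp hy) (R.inv_mem hy), key g hg y hy⟩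
    rw [hRA] at hK
    have hx₀Rad : x₀ ∈ RadS := ⟨hx₀R, fun y hy => (hK hy).2⟩
    have h6 := hi x₀ hx₀Rad (by rw [hx₀]; exact Subgroup.mem_zpowers c₁)
    rw [hx₀] at h6
    exact hc₁1 h6
  · -- Case B
    obtain ⟨x₁, hx₁R, hx₁P, hx₁Rad⟩ : ∃ x₁, x₁ ∈ R ∧ x₁ ^ (p ^ k₀) = 1 ∧ x₁ ∉ RadS := by
      by_contra h
      apply hcase
      intro u h1 h2
      by_contra h3
      exact h ⟨u, h1, h2, h3⟩
    have hB1 : ∀ u ∈ R, ∀ u' ∈ R, u ^ (p ^ k₀) = 1 → u' ^ (p ^ k₀) = 1 → ⁅u, u'⁆ ^ q = 1 := by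
      intro u hu u' hu' hu1 hu'1
      by_contra hne
      have huRad : u ∉ RadS := fun h => hne (h.2 u' hu')
      obtain ⟨t, ht⟩ := metaCop_exists_zpow hpp hc₁ord (hBmem u hu x₀ hx₀R) (hBmem u hu u' hu') hne
      have h1 : ⁅u, x₀ * u' ^ (-t)⁆ ^ q = 1 := by
        rw [hBR u hu x₀ hx₀R _ (R.zpow_mem hu' _), hBRz u hu u' hu', ht, ← zpow_add]
        simp
      obtain ⟨s, hs⟩ := hR3 u hu huRad _ (R.mul_mem hx₀R (R.zpow_mem hu' _)) h1
      have h2 : (x₀ * u' ^ (-t) * u ^ (-s)) ^ (p ^ k₀) = c₁ := by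
        rw [hψ0 _ (R.mul_mem hx₀R (R.zpow_mem hu' _)) _ (R.zpow_mem hu _),
          hψ0 _ hx₀R _ (R.zpow_mem hu' _), metaCop_zpow_pow, metaCop_zpow_pow, hx₀, hu1, hu'1,
          one_zpow, one_zpow, mul_one, mul_one]
      have h3 := hi _ hs (by rw [h2]; exact Subgroup.mem_zpowers c₁)
      rw [h2] at h3
      exact hc₁1 h3
    have hB2 : ∀ w ∈ R, w ^ (p ^ k₀) = 1 → ⁅w, x₀⁆ ^ q = 1 → w ∈ RadS := by
      intro w hw hw1 hwx
      by_contra hwRad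
      obtain ⟨t, ht⟩ := hR3 w hw hwRad x₀ hx₀R hwx
      have h2 : (x₀ * w ^ (-t)) ^ (p ^ k₀) = c₁ := by
        rw [hψ0 _ hx₀R _ (R.zpow_mem hw _), metaCop_zpow_pow, hx₀, hw1, one_zpow, mul_one]
      have h3 := hi _ ht (by rw [h2]; exact Subgroup.mem_zpowers c₁)
      rw [h2] at h3
      exact hc₁1 h3
    have hcoset : ∀ g ∈ A, x₁⁻¹ * g * x₁ * g⁻¹ ∈ RadS := by
      intro g hg
      obtain ⟨l, hgl, hlp⟩ := hl g hg
      obtain ⟨huR, hu1, h2⟩ := hu g hg l hgl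
      have hgx₁ : g * x₁ * g⁻¹ ∈ R := (mem_normalizer_iff.mp (hA hg) x₁).mp hx₁R
      have hgx₁P : (g * x₁ * g⁻¹) ^ (p ^ k₀) = 1 := by rw [conj_pow, hx₁P]; group
      have hw : x₁⁻¹ * g * x₁ * g⁻¹ = x₁⁻¹ * (g * x₁ * g⁻¹) := by group
      rw [hw]
      have hwR : x₁⁻¹ * (g * x₁ * g⁻¹) ∈ R := R.mul_mem (R.inv_mem hx₁R) hgx₁
      apply hB2 _ hwR
      · rw [hψ0 _ (R.inv_mem hx₁R) _ hgx₁, inv_pow, hx₁P, hgx₁P, inv_one, one_mul]
      · have h1 : ⁅g * x₁ * g⁻¹, g * x₀ * g⁻¹⁆ ^ q = (⁅x₁, x₀⁆ ^ q) ^ l := by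
          rw [hBconj, hconjB g hg l hgl x₁ hx₁R x₀ hx₀R]
        have h3 : ⁅g * x₁ * g⁻¹, g * x₀ * g⁻¹⁆ ^ q = (⁅g * x₁ * g⁻¹, x₀⁆ ^ q) ^ l := by
          rw [h2, hBR _ hgx₁ _ (R.zpow_mem hx₀R l) _ huR, hBRz _ hgx₁ x₀ hx₀R,
            hB1 _ hgx₁ _ huR hgx₁P hu1, mul_one]
        have h4 : ⁅x₁⁻¹ * (g * x₁ * g⁻¹), x₀⁆ ^ q =
            (⁅x₁, x₀⁆ ^ q)⁻¹ * ⁅g * x₁ * g⁻¹, x₀⁆ ^ q := by
          rw [hBL _ (R.inv_mem hx₁R) _ hgx₁ x₀ hx₀R]
          congr 1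
          have := hBLz x₁ hx₁R x₀ hx₀R (-1)
          rw [zpow_neg_one, zpow_neg_one] at this
          exact this
        have h5 : (⁅x₁⁻¹ * (g * x₁ * g⁻¹), x₀⁆ ^ q) ^ l = 1 := by
          rw [h4, ((hBcomm x₁ hx₁R x₀ hx₀R _ hgx₁ x₀ hx₀R).inv_left).mul_zpow, inv_zpow, ← h3, h1,
            inv_mul_cancel]
        exact metaCop_eq_one_of_zpow hpp (hBp _ hwR x₀ hx₀R) h5 hlp
    have hRadp : IsPGroup p ↥RadS := hR.to_le hRadR
    have hcopRad : (Nat.card A).Coprime (Nat.card RadS) := by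
      obtain ⟨n, hn⟩ := IsPGroup.iff_card.mp hRadp
      rw [hn]
      exact Nat.Coprime.pow_right n hcop
    have hsolv : Group.IsSolvable A ∨ Group.IsSolvable RadS := by
      right
      have := hRadp.isNilpotent
      infer_instance
    obtain ⟨c', hc'A, hc'⟩ := Helper35.exists_fixed_in_coset hARad hcopRad hsolv x₁ hcoset
    have hc'R : c' ∈ R := by
      have h7 : c' = x₁ * (x₁⁻¹ * c') := by group
      rw [h7]
      exact R.mul_mem hx₁R (hRadR hc')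
    have hcopR : (Nat.card A).Coprime (Nat.card R) := by
      rw [hr]
      exact Nat.Coprime.pow_right r hcop
    have hc'Rad : c' ∈ RadS :=
      Helper35.mem_of_mem_commutator_sup_of_mem_centralizer hA hARad hRadR hR'Rad hcopR
        (by rw [hRA]; exact Subgroup.mem_sup_left hc'R) hc'A
    apply hx₁Rad
    have h8 : x₁ = c' * (x₁⁻¹ * c')⁻¹ := by group
    rw [h8]
    exact RadS.mul_mem hc'Rad (RadS.inv_mem hc')

end metaCop

end Cfsg.Agent.Helper22
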