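import Mathlib
import Cfsg.Agent.Helper44.SPUDefs

set_option autoImplicit false
open Classical

namespace Cfsg.Agent.Helper22.SPURAD

open Matrix Cfsg.Agent.Helper44.SPU

variable {F : Type*} [Field F] [Fintype F] {m : ℕ}

/-- RAD: the fixed space of a unipotent `g ≠ 1` of `Sp` has a non-zero radical vector. -/
theorem spu_rad (p : ℕ) [Fact p.Prime] [CharP F p] (g : Matrix.symplecticGroup (Fin m) F)
    (hg : ∃ k : ℕ, orderOf g = p ^ k) (hg1 : g ≠ 1) :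
    ∃ r : Fin m ⊕ Fin m → F, r ≠ 0 ∧
      (g : Matrix (Fin m ⊕ Fin m) (Fin m ⊕ Fin m) F) *ᵥ r = r ∧
      ∀ y : Fin m ⊕ Fin m → F,
        (g : Matrix (Fin m ⊕ Fin m) (Fin m ⊕ Fin m) F) *ᵥ y = y → Cfsg.sympForm m F r y = 0 := by
  obtain ⟨k, hk⟩ := hg
  obtain ⟨M, hM⟩ : ∃ M : Matrix (Fin m ⊕ Fin m) (Fin m ⊕ Fin m) F,
      M = (g : Matrix (Fin m ⊕ Fin m) (Fin m ⊕ Fin m) F) := ⟨_, rfl⟩
  have hMk : M ^ (p ^ k) = 1 := by
    have h1 := pow_orderOf_eq_one g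
    rw [hk] at h1
    have h2 := congrArg
      (fun x : Matrix.symplecticGroup (Fin m) F =>
        (x : Matrix (Fin m ⊕ Fin m) (Fin m ⊕ Fin m) F)) h1
    rw [hM]
    simpa using h2
  have hN : (M - 1) ^ (p ^ k) = 0 := by
    rcases isEmpty_or_nonempty (Fin m ⊕ Fin m) with hE | hE
    · exact Subsingleton.elim _ _
    · have h1 := sub_pow_char_pow_of_commute (p := p) (n := k) (Commute.one_right M)
      rw [h1, hMk]
      simp
  have hM1 : M - 1 ≠ 0 := by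
    intro h
    apply hg1
    apply Subtype.ext
    rw [← hM]
    exact sub_eq_zero.1 h
  obtain ⟨x, hx⟩ : ∃ x : Fin m ⊕ Fin m → F, (M - 1) *ᵥ x ≠ 0 := by
    by_contra hcon
    push Not at hcon
    apply hM1
    ext i j
    have h1 := congrFun (hcon (Pi.single j 1)) i
    simpa using h1
  have hex : ∃ n : ℕ, ((M - 1) ^ n) *ᵥ x = 0 := ⟨p ^ k, by rw [hN, Matrix.zero_mulVec]⟩
  obtain ⟨n, hn, hmin⟩ : ∃ n, ((M - 1) ^ n) *ᵥ x = 0 ∧
      ∀ n' < n, ((M - 1) ^ n') *ᵥ x ≠ 0 :=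
    ⟨Nat.find hex, Nat.find_spec hex, fun n' h => Nat.find_min hex h⟩
  have hn2 : 2 ≤ n := by
    by_contra h
    have h01 : n = 0 ∨ n = 1 := by omega
    rcases h01 with rfl | rfl
    · rw [pow_zero, Matrix.one_mulVec] at hn
      rw [hn, Matrix.mulVec_zero] at hx
      exact hx rfl
    · rw [pow_one] at hn
      exact hx hn
  refine ⟨((M - 1) ^ (n - 1)) *ᵥ x, hmin (n - 1) (by omega), ?_, ?_⟩
  · have h1 : (M - 1) *ᵥ (((M - 1) ^ (n - 1)) *ᵥ x) = 0 := by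
      rw [Matrix.mulVec_mulVec, ← pow_succ', show n - 1 + 1 = n by omega]
      exact hn
    rw [Matrix.sub_mulVec, Matrix.one_mulVec, sub_eq_zero] at h1
    rw [← hM]
    exact h1
  · intro y hy
    obtain ⟨z, hz⟩ : ∃ z, z = ((M - 1) ^ (n - 2)) *ᵥ x := ⟨_, rfl⟩
    have hr : ((M - 1) ^ (n - 1)) *ᵥ x = M *ᵥ z - z := by
      rw [hz, show n - 1 = (n - 2) + 1 by omega, pow_succ', ← Matrix.mulVec_mulVec,
        Matrix.sub_mulVec, Matrix.one_mulVec]
    rw [hr, Cfsg.Agent.Helper13.sympForm_sub_left]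
    have hinv := (Cfsg.Agent.Helper13.mem_symplecticGroup_iff_sympForm M).1
      (by rw [hM]; exact g.2) z y
    rw [← hM] at hy
    rw [hy] at hinv
    rw [hinv, sub_self]

end Cfsg.Agent.Helper22.SPURAD
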