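import Mathlib
import Cfsg.Agent.Helper3.SU2Defs

set_option autoImplicit false

namespace Cfsg.Agent.Helper22

open Cfsg.Agent.Helper3.SU2 Cfsg.Agent.Helper13

variable {F : Type*} [Field F] [Fintype F] {n : ℕ}

theorem su2c_move (hF : Fintype.card F = 2 ^ 2) {Φ : Set (Fin n → F)} (hΦ : PhiCl Φ)
    (hE : ∀ i j : Fin n, Edge Φ i j) (v : Fin n → F) (hv : v ∈ Φ) (i j : Fin n) (hij : i ≠ j)
    (hvj : v j = 0) (ν : F) (hν : ν ≠ 0) :
    Function.update (Function.update v i 0) j (ν * v i) ∈ Φ := by
  classical
  have h2 : (2 : F) = 0 := ufld2_two hF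
  have hν3 : ν ^ 3 = 1 := by
    have h := FiniteField.pow_card_sub_one_eq_one ν hν
    rw [hF] at h
    simpa using h
  have hx : Pi.single i (1 : F) + ν • Pi.single j (1 : F) ∈ Φ := hE i j ν hν
  have hxx : Cfsg.hermForm n F 2 (Pi.single i (1 : F) + ν • Pi.single j (1 : F))
      (Pi.single i (1 : F) + ν • Pi.single j (1 : F)) = 0 := by
    rw [herm2_apply]
    have hk : ∀ k : Fin n, (Pi.single i (1 : F) + ν • Pi.single j (1 : F) : Fin n → F) k *
        (Pi.single i (1 : F) + ν • Pi.single j (1 : F) : Fin n → F) k ^ 2 =
        (if k = i then 1 else 0) + (if k = j then ν ^ 3 else 0) := by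
      intro k
      simp only [Pi.add_apply, Pi.smul_apply, Pi.single_apply, smul_eq_mul]
      by_cases hki : k = i
      · subst hki
        simp [hij]
      · by_cases hkj : k = j
        · subst hkj
          simp [hki]
          ring
        · simp [hki, hkj]
    rw [Finset.sum_congr rfl (fun k _ => hk k), Finset.sum_add_distrib]
    simp only [Finset.sum_ite_eq', Finset.mem_univ, if_true, hν3]
    linear_combination h2
  have hvx : Cfsg.hermForm n F 2 v (Pi.single i (1 : F) + ν • Pi.single j (1 : F)) = v i := by
    rw [herm2_apply]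
    have hk : ∀ k : Fin n, v k * (Pi.single i (1 : F) + ν • Pi.single j (1 : F) : Fin n → F) k ^ 2 =
        (if k = i then v i else 0) := by
      intro k
      simp only [Pi.add_apply, Pi.smul_apply, Pi.single_apply, smul_eq_mul]
      by_cases hki : k = i
      · subst hki
        simp [hij]
      · by_cases hkj : k = j
        · subst hkj
          simp [hki, hvj]
        · simp [hki, hkj]
    rw [Finset.sum_congr rfl (fun k _ => hk k)]
    simp
  have key := hΦ.tv _ v hx hv hxx
  rw [hvx] at key
  convert key using 1
  funext k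
  simp only [Pi.add_apply, Pi.smul_apply, Pi.single_apply, smul_eq_mul, Function.update_apply]
  by_cases hkj : k = j
  · subst hkj
    have hki : k ≠ i := fun h => hij h.symm
    simp [hki, hvj]
    ring
  · by_cases hki : k = i
    · subst hki
      simp [hkj]
      linear_combination (- v k) * h2
    · simp [hki, hkj]

end Cfsg.Agent.Helper22
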