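import Mathlib
import Cfsg.Agent.Helper3.SU2Defs

set_option autoImplicit false

namespace Cfsg.Agent.Helper22

open Cfsg.Agent.Helper3.SU2 Cfsg.Agent.Helper13

variable {F : Type*} [Field F] [Fintype F] {n : ℕ}

theorem su2c_scale {Φ : Set (Fin n → F)}
    (hmove : ∀ (v : Fin n → F), v ∈ Φ → ∀ i j : Fin n, i ≠ j → v j = 0 → ∀ ν : F, ν ≠ 0 →
      Function.update (Function.update v i 0) j (ν * v i) ∈ Φ)
    (v : Fin n → F) (hv : v ∈ Φ) (i j : Fin n) (hij : i ≠ j) (hvj : v j = 0) (l : F)
    (hl : l ≠ 0) : Function.update v i (l * v i) ∈ Φ := by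
  classical
  have h1 := hmove v hv i j hij hvj l hl
  have h1i : Function.update (Function.update v i 0) j (l * v i) i = 0 := by
    simp [Function.update_apply, hij]
  have h2 := hmove _ h1 j i (Ne.symm hij) h1i 1 one_ne_zero
  convert h2 using 1
  funext k
  simp only [Function.update_apply]
  by_cases hki : k = i
  · subst hki
    simp [hij]
  · by_cases hkj : k = j
    · subst hkj
      simp [hki, hvj]
    · simp [hki, hkj]

end Cfsg.Agent.Helper22
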