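import Mathlib
import Cfsg.Agent.Helper3.SU2Defs

set_option autoImplicit false

namespace Cfsg.Agent.Helper22

open Cfsg.Agent.Helper3.SU2 Cfsg.Agent.Helper13

variable {F : Type*} [Field F] [Fintype F] {n : ℕ}

theorem su2c_w4base_upd {w : Fin n → F} {p q : Fin n} (h : p ≠ q) (a : F) (hw : w q = 0) :
    Function.update w p a q = 0 := by
  classical
  rw [Function.update_of_ne (Ne.symm h)]
  exact hw

theorem su2c_w4base_aux {Φ : Set (Fin n → F)}
    (hscale : ∀ (v : Fin n → F), v ∈ Φ → ∀ i j : Fin n, i ≠ j → v j = 0 → ∀ l : F, l ≠ 0 →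
      Function.update v i (l * v i) ∈ Φ)
    (p0 p1 p2 p3 p4 : Fin n) (h01 : p0 ≠ p1) (h02 : p0 ≠ p2) (h03 : p0 ≠ p3) (h04 : p0 ≠ p4)
    (h12 : p1 ≠ p2) (h13 : p1 ≠ p3) (h14 : p1 ≠ p4) (h23 : p2 ≠ p3) (h24 : p2 ≠ p4)
    (h34 : p3 ≠ p4)
    (hw : (win p0 p1 p2 p3 : Fin n → F) ∈ Φ)
    (v : Fin n → F) (hv : ∀ i : Fin n, v i ≠ 0 ↔ (i = p0 ∨ i = p1 ∨ i = p2 ∨ i = p3)) :
    v ∈ Φ := by
  classical
  have e0 : (win p0 p1 p2 p3 : Fin n → F) p4 = 0 := by
    rw [win_apply]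
    simp [Ne.symm h04, Ne.symm h14, Ne.symm h24, Ne.symm h34]
  have hv0 : v p0 ≠ 0 := (hv p0).2 (Or.inl rfl)
  have hv1 : v p1 ≠ 0 := (hv p1).2 (Or.inr (Or.inl rfl))
  have hv2 : v p2 ≠ 0 := (hv p2).2 (Or.inr (Or.inr (Or.inl rfl)))
  have hv3 : v p3 ≠ 0 := (hv p3).2 (Or.inr (Or.inr (Or.inr rfl)))
  have s1 := hscale _ hw p0 p4 h04 e0 (v p0) hv0
  have e1 := su2c_w4base_upd h04 (v p0 * (win p0 p1 p2 p3 : Fin n → F) p0) e0
  have s2 := hscale _ s1 p1 p4 h14 e1 (v p1) hv1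
  have e2 := su2c_w4base_upd h14 (v p1 * (Function.update (win p0 p1 p2 p3 : Fin n → F) p0
    (v p0 * (win p0 p1 p2 p3 : Fin n → F) p0)) p1) e1
  have s3 := hscale _ s2 p2 p4 h24 e2 (v p2) hv2
  have e3 := su2c_w4base_upd h24 (v p2 * (Function.update (Function.update
    (win p0 p1 p2 p3 : Fin n → F) p0 (v p0 * (win p0 p1 p2 p3 : Fin n → F) p0)) p1
    (v p1 * (Function.update (win p0 p1 p2 p3 : Fin n → F) p0
    (v p0 * (win p0 p1 p2 p3 : Fin n → F) p0)) p1)) p2) e2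
  have s4 := hscale _ s3 p3 p4 h34 e3 (v p3) hv3
  convert s4 using 1
  funext k
  simp only [Function.update_apply, win_apply]
  by_cases k0 : k = p0
  · subst k0
    simp [h01, h02, h03]
  · by_cases k1 : k = p1
    · subst k1
      simp [Ne.symm h01, h12, h13]
    · by_cases k2 : k = p2
      · subst k2
        simp [Ne.symm h02, Ne.symm h12, h23]
      · by_cases k3 : k = p3
        · subst k3
          simp [Ne.symm h03, Ne.symm h13, Ne.symm h23]
        · have hvk : v k = 0 := by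
            by_contra hne
            rcases (hv k).1 hne with h | h | h | h
            · exact k0 h
            · exact k1 h
            · exact k2 h
            · exact k3 h
          simp [k0, k1, k2, k3, hvk]

theorem su2c_w4base (hn : 5 ≤ n) {Φ : Set (Fin n → F)}
    (hscale : ∀ (v : Fin n → F), v ∈ Φ → ∀ i j : Fin n, i ≠ j → v j = 0 → ∀ l : F, l ≠ 0 →
      Function.update v i (l * v i) ∈ Φ)
    (hw : (win (⟨0, by omega⟩ : Fin n) ⟨1, by omega⟩ ⟨2, by omega⟩ ⟨3, by omega⟩ : Fin n → F) ∈ Φ)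
    (v : Fin n → F) (hv : ∀ i : Fin n, v i ≠ 0 ↔ i.val < 4) : v ∈ Φ := by
  refine su2c_w4base_aux hscale ⟨0, by omega⟩ ⟨1, by omega⟩ ⟨2, by omega⟩ ⟨3, by omega⟩
    ⟨4, by omega⟩ ?_ ?_ ?_ ?_ ?_ ?_ ?_ ?_ ?_ ?_ hw v ?_
  all_goals first
    | (intro h; simp [Fin.ext_iff] at h; done)
    | skip
  intro i
  rw [hv i]
  constructor
  · intro h
    have : i.val = 0 ∨ i.val = 1 ∨ i.val = 2 ∨ i.val = 3 := by omega
    rcases this with h | h | h | h
    · exact Or.inl (Fin.ext h)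
    · exact Or.inr (Or.inl (Fin.ext h))
    · exact Or.inr (Or.inr (Or.inl (Fin.ext h)))
    · exact Or.inr (Or.inr (Or.inr (Fin.ext h)))
  · rintro (h | h | h | h) <;> (rw [h]; simp)

end Cfsg.Agent.Helper22
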